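import Mathlib
import Cfsg.Prelude.Def_Local
import Cfsg.Agent.Helper10.AxB
import Cfsg.Agent.Helper10.PCons
import Cfsg.Agent.Lead.Coprime
import Cfsg.Agent.S0010
import Cfsg.Agent.Helper13.PPrime

set_option autoImplicit false

namespace Cfsg.Agent.Helper13

open Cfsg

universe u

/-- If `H/O_{p'}(H)` has no components (e.g. `H` is `p`-solvable), `A` is a `p`-subgroup and `X` is a
`p'`-subgroup of `C_H(A)` normalized by `C_H(A)`, then `X ≤ O_{p'}(H)`. -/
theorem le_pPrimeCore_of_layer_bot {H : Type u} [Group H] [Finite H] (p : ℕ) [Fact p.Prime]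
    (hlay : layer (H ⧸ pPrimeCore p H) = ⊥) (A X : Subgroup H) (hA : IsPGroup p A)
    (hXA : X ≤ Subgroup.centralizer (A : Set H)) (hXc : (Nat.card X).Coprime p)
    (hXn : ∀ c ∈ Subgroup.centralizer (A : Set H), ∀ x ∈ X, c * x * c⁻¹ ∈ X) :
    X ≤ pPrimeCore p H := by
  have hp := (Fact.out : p.Prime)
  have hKc : (Nat.card (pPrimeCore p H)).Coprime p := Cfsg.Agent.Helper10.pPrimeCore_coprime p H
  haveI hPn : (pCore p (H ⧸ pPrimeCore p H)).Normal := Cfsg.Agent.S0010.pCore_normal p
  have hPp : IsPGroup p (pCore p (H ⧸ pPrimeCore p H)) := Cfsg.Agent.S0010.pCore_isPGroup p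
  have hAp : IsPGroup p (A.map (QuotientGroup.mk' (pPrimeCore p H))) := hA.map _
  have hXbc : (Nat.card (X.map (QuotientGroup.mk' (pPrimeCore p H)))).Coprime p :=
    Nat.Coprime.coprime_dvd_left (Subgroup.card_map_dvd _ _) hXc
  have hXb : ∀ b ∈ X.map (QuotientGroup.mk' (pPrimeCore p H)), (orderOf b).Coprime p := by
    intro b hb
    have h1 : orderOf b ∣ Nat.card (X.map (QuotientGroup.mk' (pPrimeCore p H))) := by
      have := orderOf_dvd_natCard (⟨b, hb⟩ : X.map (QuotientGroup.mk' (pPrimeCore p H)))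
      rwa [Subgroup.orderOf_mk] at this
    exact Nat.Coprime.coprime_dvd_left h1 hXbc
  have hdisj : pCore p (H ⧸ pPrimeCore p H) ⊓ X.map (QuotientGroup.mk' (pPrimeCore p H)) = ⊥ :=
    pgroup_inf_coprime_eq_bot _ _ hPp hXbc
  have hAB : ⁅A.map (QuotientGroup.mk' (pPrimeCore p H)),
      X.map (QuotientGroup.mk' (pPrimeCore p H))⁆ = ⊥ := by
    rw [← Subgroup.map_commutator, Subgroup.commutator_comm,
      Subgroup.commutator_eq_bot_iff_le_centralizer.mpr hXA, Subgroup.map_bot]
  have hAsolv : Group.IsSolvable A := by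
    haveI := hA.isNilpotent
    infer_instance
  have hC : ⁅pCore p (H ⧸ pPrimeCore p H) ⊓
      Subgroup.centralizer ((A.map (QuotientGroup.mk' (pPrimeCore p H)) : Subgroup _) : Set _),
      X.map (QuotientGroup.mk' (pPrimeCore p H))⁆ = ⊥ := by
    rw [Subgroup.commutator_eq_bot_iff_le_centralizer]
    intro cb hcb
    obtain ⟨hcP, hcA⟩ := Subgroup.mem_inf.mp hcb
    obtain ⟨c, rfl⟩ := QuotientGroup.mk'_surjective (pPrimeCore p H) cb
    have hx : ∀ a ∈ A, c⁻¹ * a * c * a⁻¹ ∈ pPrimeCore p H := by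
      intro a ha
      have h1 := (Subgroup.mem_centralizer_iff.mp hcA) _ ⟨a, ha, rfl⟩
      rw [← QuotientGroup.eq_one_iff, ← QuotientGroup.mk'_apply]
      simp only [map_mul, map_inv]
      rw [mul_assoc _ _ ((QuotientGroup.mk' (pPrimeCore p H)) c), h1]
      group
    obtain ⟨n, hn, hcn⟩ := Cfsg.Agent.Lead.exists_mul_mem_normalizer A (pPrimeCore p H)
      (by rw [Subgroup.normalizer_eq_top]; exact le_top)
      (by
        obtain ⟨k, hk⟩ := IsPGroup.iff_card.mp hA
        rw [hk]; exact Nat.Coprime.pow_left k hKc.symm)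
      (Or.inl hAsolv) c hx
    have hcn' : (QuotientGroup.mk' (pPrimeCore p H)) (c * n) = (QuotientGroup.mk' (pPrimeCore p H)) c := by
      have hn1 : (QuotientGroup.mk' (pPrimeCore p H)) n = 1 := (QuotientGroup.eq_one_iff n).mpr hn
      rw [map_mul, hn1, mul_one]
    have hcent : c * n ∈ Subgroup.centralizer (A : Set H) := by
      rw [Subgroup.mem_centralizer_iff]
      intro a ha
      have h1 : (c * n)⁻¹ * a * (c * n) * a⁻¹ ∈ A ⊓ pPrimeCore p H := by
        refine Subgroup.mem_inf.mpr ⟨?_, ?_⟩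
        · have := (Subgroup.mem_normalizer_iff.mp (Subgroup.inv_mem _ hcn) a).mp ha
          rw [inv_inv] at this
          exact A.mul_mem this (A.inv_mem ha)
        · have h2 := (Subgroup.mem_centralizer_iff.mp hcA) _ ⟨a, ha, rfl⟩
          rw [← QuotientGroup.eq_one_iff, ← QuotientGroup.mk'_apply]
          simp only [map_mul, map_inv] at hcn' ⊢
          rw [hcn']
          rw [mul_assoc _ _ ((QuotientGroup.mk' (pPrimeCore p H)) c), h2]
          group
      rw [pgroup_inf_coprime_eq_bot A _ hA hKc, Subgroup.mem_bot] at h1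
      calc a * (c * n) = (c * n) * ((c * n)⁻¹ * a * (c * n) * a⁻¹) * a := by group
        _ = c * n * a := by rw [h1, mul_one]
    rw [Subgroup.mem_centralizer_iff]
    rintro _ ⟨x, hx', rfl⟩
    have h3 : (QuotientGroup.mk' (pPrimeCore p H)) ((c * n) * x * (c * n)⁻¹ * x⁻¹) ∈
        pCore p (H ⧸ pPrimeCore p H) ⊓ X.map (QuotientGroup.mk' (pPrimeCore p H)) := by
      refine Subgroup.mem_inf.mpr ⟨?_, ⟨_, X.mul_mem (hXn _ hcent x hx') (X.inv_mem hx'), rfl⟩⟩
      simp only [map_mul, map_inv] at hcn' ⊢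
      rw [hcn', mul_assoc, mul_assoc]
      refine Subgroup.mul_mem _ hcP ?_
      rw [← mul_assoc]
      exact hPn.conj_mem _ (Subgroup.inv_mem _ hcP) _
    rw [hdisj, Subgroup.mem_bot] at h3
    simp only [map_mul, map_inv] at hcn' h3
    rw [hcn'] at h3
    set cb := (QuotientGroup.mk' (pPrimeCore p H)) c with hcb'
    set xb := (QuotientGroup.mk' (pPrimeCore p H)) x with hxb'
    calc xb * cb = (cb * xb * cb⁻¹ * xb⁻¹)⁻¹ * (cb * xb) := by group
      _ = cb * xb := by rw [h3]; group
  have hT := Cfsg.Agent.Helper10.thompson_AxB _ _ _ hPp hAp hXb hAB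
    (by rw [Subgroup.normalizer_eq_top]; exact le_top)
    (by rw [Subgroup.normalizer_eq_top]; exact le_top) hC
  rw [Subgroup.commutator_comm, Subgroup.commutator_eq_bot_iff_le_centralizer] at hT
  have hle := hT.trans (Cfsg.Agent.Helper10.centralizer_pCore_le_of_layer_bot p hlay)
  intro x hx
  have h4 : (QuotientGroup.mk' (pPrimeCore p H)) x ∈
      pCore p (H ⧸ pPrimeCore p H) ⊓ X.map (QuotientGroup.mk' (pPrimeCore p H)) :=
    Subgroup.mem_inf.mpr ⟨hle ⟨x, hx, rfl⟩, ⟨x, hx, rfl⟩⟩
  rw [hdisj, Subgroup.mem_bot] at h4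
  exact (QuotientGroup.eq_one_iff x).mp h4

/-- solvable groups have trivial layer modulo the `p'`-core -/
theorem layer_quot_eq_bot_of_solvable {H : Type u} [Group H] [Group.IsSolvable H] (p : ℕ) :
    layer (H ⧸ pPrimeCore p H) = ⊥ := by
  have : {K : Subgroup (H ⧸ pPrimeCore p H) | IsComponent K} = ∅ := by
    ext K
    simp only [Set.mem_setOf_eq, Set.mem_empty_iff_false, iff_false]
    intro hK
    apply Cfsg.Agent.Helper10.comp_not_solvable hK
    infer_instance
  unfold layer
  rw [this, sSup_empty]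

/-- balance for an element with solvable (or just componentless mod core) centralizer -/
theorem balance_le {G : Type u} [Group G] [Finite G] (p : ℕ) [Fact p.Prime] (x y : G)
    (hx : IsPGroup p (Subgroup.zpowers x)) (hxy : x * y = y * x)
    (hlay : layer (↥(Subgroup.centralizer ({y} : Set G)) ⧸
      pPrimeCore p ↥(Subgroup.centralizer ({y} : Set G))) = ⊥) :
    centralizerPPrimeCore p x ⊓ Subgroup.centralizer {y} ≤ centralizerPPrimeCore p y := by
  have hxCy : x ∈ Subgroup.centralizer ({y} : Set G) := by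
    rw [Subgroup.mem_centralizer_iff]
    intro z hz
    rw [Set.mem_singleton_iff.mp hz]; exact hxy.symm
  have hOx : centralizerPPrimeCore p x ≤ Subgroup.centralizer ({x} : Set G) :=
    Subgroup.map_subtype_le _
  have hOxc : (Nat.card (centralizerPPrimeCore p x)).Coprime p := by
    show (Nat.card ((pPrimeCore p ↥(Subgroup.centralizer ({x} : Set G))).map
      (Subgroup.centralizer ({x} : Set G)).subtype)).Coprime p
    rw [Subgroup.card_map_of_injective (Subgroup.subtype_injective _)]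
    exact Cfsg.Agent.Helper10.pPrimeCore_coprime p _
  have key := le_pPrimeCore_of_layer_bot p hlay
    ((Subgroup.zpowers x).subgroupOf (Subgroup.centralizer ({y} : Set G)))
    ((centralizerPPrimeCore p x ⊓ Subgroup.centralizer {y}).subgroupOf (Subgroup.centralizer ({y} : Set G)))
    hx.comap_subtype ?_ ?_ ?_
  · intro z hz
    exact ⟨⟨z, (Subgroup.mem_inf.mp hz).2⟩, key (Subgroup.mem_subgroupOf.mpr hz), rfl⟩
  · intro z hz
    rw [Subgroup.mem_subgroupOf] at hz
    have hzx : (z : G) ∈ Subgroup.centralizer ({x} : Set G) := hOx (Subgroup.mem_inf.mp hz).1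
    rw [Subgroup.mem_centralizer_iff]
    intro a ha
    have ha' : (a : G) ∈ Subgroup.zpowers x := ha
    apply Subtype.ext
    have h1 : Subgroup.zpowers x ≤ Subgroup.centralizer ({(z : G)} : Set G) := by
      rw [Subgroup.zpowers_le, Subgroup.mem_centralizer_iff]
      intro w hw
      rw [Set.mem_singleton_iff.mp hw]
      exact ((Subgroup.mem_centralizer_iff.mp hzx) x rfl).symm
    have h2 := (Subgroup.mem_centralizer_iff.mp (h1 ha')) (z : G) rfl
    simp only [Subgroup.coe_mul]
    exact h2.symm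
  · rw [Nat.card_congr (Subgroup.subgroupOfEquivOfLe inf_le_right).toEquiv]
    exact Nat.Coprime.coprime_dvd_left (Subgroup.card_dvd_of_le inf_le_left) hOxc
  · intro c hc z hz
    rw [Subgroup.mem_subgroupOf] at hz ⊢
    obtain ⟨hz1, hz2⟩ := Subgroup.mem_inf.mp hz
    have hcx : (c : G) ∈ Subgroup.centralizer ({x} : Set G) := by
      rw [Subgroup.mem_centralizer_iff]
      intro w hw
      rw [Set.mem_singleton_iff.mp hw]
      have h1 := (Subgroup.mem_centralizer_iff.mp hc) ⟨x, hxCy⟩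
        (Subgroup.mem_subgroupOf.mpr (Subgroup.mem_zpowers x))
      exact congrArg Subtype.val h1
    refine Subgroup.mem_inf.mpr ⟨?_, ?_⟩
    · obtain ⟨z', hz', hzz⟩ := hz1
      have hn : (pPrimeCore p ↥(Subgroup.centralizer ({x} : Set G))).Normal :=
        Subgroup.sSup_normal _ (fun _ h => h.1)
      refine ⟨⟨c, hcx⟩ * z' * ⟨c, hcx⟩⁻¹, hn.conj_mem z' hz' ⟨c, hcx⟩, ?_⟩
      simp only [Subgroup.coe_subtype, Subgroup.coe_mul, Subgroup.coe_inv]
      rw [← hzz]; rfl
    · exact Subgroup.mul_mem _ (Subgroup.mul_mem _ c.2 hz2) (Subgroup.inv_mem _ c.2)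

end Cfsg.Agent.Helper13
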