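import Mathlib
import Cfsg.Agent.Helper13.Orbit

set_option autoImplicit false

namespace Cfsg.Agent.Helper13

open Finset Function

section HWIter

variable {D C : Type*} [Group D] [CommGroup C]

/-- binomial expansion of the partial norm products for an endomorphism `c`, in terms of the
iterates of `y ↦ y⁻¹ * c y`. -/
theorem hw_prod_binom (c : D →* D) (ψ : D →* C) :
    ∀ (n : ℕ) (d : D), ∏ i ∈ range n, ψ (c^[i] d) =
      ∏ j ∈ range n, ψ ((fun y : D => y⁻¹ * c y)^[j] d) ^ (n.choose (j + 1)) := by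
  have hstep : ∀ (i : ℕ) (d : D), ψ (c^[i + 1] d) = ψ (c^[i] d) * ψ (c^[i] (d⁻¹ * c d)) := by
    intro i d
    rw [← map_mul, ← iterate_map_mul, mul_inv_cancel_left, Function.iterate_succ_apply]
  intro n
  induction n with
  | zero => intro d; simp
  | succ n ih =>
    intro d
    have h1 : ∏ i ∈ range (n + 1), ψ (c^[i] d) =
        ψ d * (∏ i ∈ range n, ψ (c^[i] d)) * ∏ i ∈ range n, ψ (c^[i] (d⁻¹ * c d)) := by
      rw [Finset.prod_range_succ', Function.iterate_zero_apply]
      rw [Finset.prod_congr rfl (fun i _ => hstep i d), Finset.prod_mul_distrib]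
      rw [mul_comm, mul_assoc]
    have h2 : ∏ j ∈ range (n + 1), ψ ((fun y : D => y⁻¹ * c y)^[j] d) ^ ((n + 1).choose (j + 1)) =
        (∏ j ∈ range (n + 1), ψ ((fun y : D => y⁻¹ * c y)^[j] d) ^ (n.choose j)) *
          ∏ j ∈ range (n + 1), ψ ((fun y : D => y⁻¹ * c y)^[j] d) ^ (n.choose (j + 1)) := by
      rw [← Finset.prod_mul_distrib]
      refine Finset.prod_congr rfl (fun j _ => ?_)
      rw [Nat.choose_succ_succ, pow_add]
    have h3 : ∏ j ∈ range (n + 1), ψ ((fun y : D => y⁻¹ * c y)^[j] d) ^ (n.choose j) =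
        (∏ j ∈ range n, ψ ((fun y : D => y⁻¹ * c y)^[j] (d⁻¹ * c d)) ^ (n.choose (j + 1))) * ψ d := by
      rw [Finset.prod_range_succ']
      simp only [Function.iterate_succ_apply, Function.iterate_zero_apply, Nat.choose_zero_right,
        pow_one]
    have h4 : ∏ j ∈ range (n + 1), ψ ((fun y : D => y⁻¹ * c y)^[j] d) ^ (n.choose (j + 1)) =
        ∏ j ∈ range n, ψ ((fun y : D => y⁻¹ * c y)^[j] d) ^ (n.choose (j + 1)) := by
      rw [Finset.prod_range_succ, Nat.choose_succ_self, pow_zero, mul_one]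
    rw [h1, h2, h3, h4, ih d, ih (d⁻¹ * c d)]
    exact (mul_comm _ _).trans (by rw [mul_assoc])

/-- the norm product over `p` steps is trivial when the `(p-1)`-fold commutator vanishes and the
target has exponent `p`. -/
theorem hw_prod_p {p : ℕ} [hp : Fact p.Prime] (hC : ∀ x : C, x ^ p = 1) (c : D →* D)
    (ψ : D →* C) (hE : ∀ d : D, (fun y : D => y⁻¹ * c y)^[p - 1] d = 1) (d : D) :
    ∏ i ∈ range p, ψ (c^[i] d) = 1 := by
  rw [hw_prod_binom c ψ p d]
  apply Finset.prod_eq_one
  intro j hj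
  have hjp : j < p := Finset.mem_range.mp hj
  by_cases hlt : j + 1 < p
  · obtain ⟨m, hm⟩ := Nat.Prime.dvd_choose_self hp.out (Nat.succ_ne_zero j) hlt
    rw [hm, pow_mul, hC, one_pow]
  · have hj' : j = p - 1 := by omega
    rw [hj', hE d, map_one, one_pow]

theorem hw_prod_mul {p : ℕ} [hp : Fact p.Prime] (hC : ∀ x : C, x ^ p = 1) (c : D →* D)
    (ψ : D →* C) (hE : ∀ d : D, (fun y : D => y⁻¹ * c y)^[p - 1] d = 1) :
    ∀ (n : ℕ) (d : D), ∏ i ∈ range (p * n), ψ (c^[i] d) = 1 := by
  intro n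
  induction n with
  | zero => intro d; simp
  | succ n ih =>
    intro d
    rw [Nat.mul_succ, Finset.prod_range_add, ih d, one_mul]
    have h1 : ∀ x ∈ range p, ψ (c^[p * n + x] d) = ψ (c^[x] (c^[p * n] d)) := by
      intro x _
      rw [Nat.add_comm, Function.iterate_add_apply]
    rw [Finset.prod_congr rfl h1]
    exact hw_prod_p hC c ψ hE _

end HWIter

section HWCore

variable {X C : Type*} [Group X] [Finite X] [CommGroup C]

/-- the transfer-type core of the Hall–Wielandt argument: if `z` normalizes `D`, fixes only the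
trivial coset of the stabilizer `Y` of `φ|D`, and acts on `D` with vanishing `(p-1)`-fold
commutators, then everything stabilizes `φ|D`. -/
theorem hw_core {p : ℕ} [hp : Fact p.Prime] (hC : ∀ c : C, c ^ p = 1) (D : Subgroup X)
    [hDn : D.Normal] (φ : X → C) (hφ : ∀ a ∈ D, ∀ b ∈ D, φ (a * b) = φ a * φ b)
    (Y : Subgroup X) (hY : ∀ y, y ∈ Y ↔ ∀ d ∈ D, φ (y * d * y⁻¹) = φ d)
    (z : X) (hzp : ∃ k, z ^ (p ^ k) = 1) (hzY : z ∈ Y) (hz : ∀ x : X, x⁻¹ * z * x ∈ Y → x ∈ Y)
    (hE : ∀ d ∈ D, (fun y : X => y⁻¹ * z⁻¹ * y * z)^[p - 1] d = 1) :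
    ∀ x : X, x ∈ Y := by
  classical
  haveI : Fintype (X ⧸ Y) := Fintype.ofFinite _
  have hconj : ∀ (x : X) (d : X), d ∈ D → x⁻¹ * d * x ∈ D := by
    intro x d hd
    have := hDn.conj_mem d hd x⁻¹
    rwa [inv_inv] at this
  let F : X → X ⧸ Y → C := fun d q => φ (q.out⁻¹ * d * q.out)
  have hF : ∀ d ∈ D, ∀ x : X, F d (x : X ⧸ Y) = φ (x⁻¹ * d * x) := by
    intro d hd x
    obtain ⟨y, hy⟩ := QuotientGroup.mk_out_eq_mul Y x
    show φ (_⁻¹ * d * _) = _
    rw [hy]
    have h1 := (hY (y : X)⁻¹).mp (inv_mem y.2) (x⁻¹ * d * x) (hconj x d hd)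
    rw [← h1]
    congr 1
    group
  have hΘ : ∀ d ∈ D, ∀ w : X, ∏ q : X ⧸ Y, F (w * d * w⁻¹) q = ∏ q : X ⧸ Y, F d q := by
    intro d hd w
    refine Fintype.prod_equiv (MulAction.toPerm w⁻¹ : Equiv.Perm (X ⧸ Y)) _ _ ?_
    intro q
    induction q using QuotientGroup.induction_on with
    | H x =>
      show F (w * d * w⁻¹) (x : X ⧸ Y) = F d ((w⁻¹ * x : X) : X ⧸ Y)
      rw [hF _ (hDn.conj_mem d hd w), hF d hd]
      congr 1
      group
  have hzfin : ∀ q : X ⧸ Y, 0 < minimalPeriod (z • ·) q := by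
    intro q
    apply IsPeriodicPt.minimalPeriod_pos (orderOf_pos z)
    rw [MulAction.isPeriodicPt_smul_iff, pow_orderOf_eq_one, one_smul]
  have hmain : ∀ d ∈ D,
      ∏ q ∈ (Finset.univ : Finset (X ⧸ Y)).erase ((1 : X) : X ⧸ Y), F d q = 1 := by
    intro d hd
    apply prod_eq_one_of_cyclic z hzfin (F d) (Fintype.card (X ⧸ Y)) _
      ((Finset.card_erase_le).trans (Finset.card_le_univ _))
    · intro q hq
      rw [Finset.mem_erase] at hq ⊢
      refine ⟨?_, Finset.mem_univ _⟩
      intro h1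
      apply hq.1
      have h2 : q = z⁻¹ • ((1 : X) : X ⧸ Y) := by rw [← h1, inv_smul_smul]
      rw [h2]
      show ((z⁻¹ * 1 : X) : X ⧸ Y) = ((1 : X) : X ⧸ Y)
      rw [QuotientGroup.eq]
      simpa using hzY
    · intro q hq
      rw [Finset.mem_erase] at hq
      induction q using QuotientGroup.induction_on with
      | H x =>
      have hxY : x ∉ Y := by
        intro hx
        apply hq.1
        rw [QuotientGroup.eq]
        simpa using hx
      obtain ⟨k, hk⟩ := hzp
      obtain ⟨m, hm⟩ : ∃ m, m = minimalPeriod (z • ·) (x : X ⧸ Y) := ⟨_, rfl⟩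
      have hmdvd : m ∣ p ^ k := by
        rw [hm]
        apply IsPeriodicPt.minimalPeriod_dvd
        rw [MulAction.isPeriodicPt_smul_iff, hk, one_smul]
      obtain ⟨j, hj, hmj⟩ := (Nat.dvd_prime_pow hp.out).mp hmdvd
      have hj0 : j ≠ 0 := by
        rintro rfl
        rw [pow_zero] at hmj
        have hfix : z • (x : X ⧸ Y) = (x : X ⧸ Y) := by
          have := Function.isPeriodicPt_minimalPeriod (z • ·) (x : X ⧸ Y)
          rw [← hm, hmj] at this
          exact this
        have h3 : ((z * x : X) : X ⧸ Y) = (x : X ⧸ Y) := hfix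
        rw [QuotientGroup.eq] at h3
        apply hxY
        apply hz
        have h4 := inv_mem h3
        convert h4 using 1
        group
      obtain ⟨j', rfl⟩ := Nat.exists_eq_succ_of_ne_zero hj0
      rw [← hm, hmj, pow_succ']
      let c : D →* D := MonoidHom.mk' (fun d' => ⟨z⁻¹ * d' * z, hconj z d' d'.2⟩) (by
        intro a b; apply Subtype.ext; simp only [Subgroup.coe_mul]; group)
      let ψ : D →* C := MonoidHom.mk' (fun d' => φ (x⁻¹ * d' * x)) (by
        intro a b
        rw [← hφ _ (hconj x a a.2) _ (hconj x b b.2)]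
        congr 1; simp only [Subgroup.coe_mul]; group)
      have hc : ∀ (i : ℕ) (d' : D), ((c^[i] d' : D) : X) = (z ^ i)⁻¹ * d' * z ^ i := by
        intro i
        induction i with
        | zero => intro d'; simp
        | succ i ih =>
          intro d'
          rw [Function.iterate_succ_apply']
          show z⁻¹ * ((c^[i] d' : D) : X) * z = _
          rw [ih d', pow_succ]; group
      have hE' : ∀ d' : D, (fun y : D => y⁻¹ * c y)^[p - 1] d' = 1 := by
        have hco : ∀ (n : ℕ) (d' : D), (((fun y : D => y⁻¹ * c y)^[n] d' : D) : X) =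
            (fun y : X => y⁻¹ * z⁻¹ * y * z)^[n] (d' : X) := by
          intro n
          induction n with
          | zero => intro d'; rfl
          | succ n ih =>
            intro d'
            rw [Function.iterate_succ_apply, Function.iterate_succ_apply, ih]
            congr 1
            show (d' : X)⁻¹ * (z⁻¹ * d' * z) = _
            group
        intro d'
        apply Subtype.ext
        rw [hco, hE _ d'.2]; rfl
      have h5 := hw_prod_mul hC c ψ hE' (p ^ j') ⟨d, hd⟩
      rw [← h5]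
      refine Finset.prod_congr rfl (fun i _ => ?_)
      show F d ((z ^ i * x : X) : X ⧸ Y) = φ (x⁻¹ * ((c^[i] ⟨d, hd⟩ : D) : X) * x)
      rw [hF d hd, hc]
      congr 1
      group
  have h1 : ∀ d ∈ D, ∏ q : X ⧸ Y, F d q = φ d := by
    intro d hd
    rw [← Finset.mul_prod_erase Finset.univ (F d) (Finset.mem_univ ((1 : X) : X ⧸ Y)),
      hmain d hd, mul_one, hF d hd]
    congr 1; group
  intro x
  rw [hY]
  intro d hd
  rw [← h1 _ (hDn.conj_mem d hd x), hΘ d hd x, h1 d hd]

end HWCore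

end Cfsg.Agent.Helper13
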