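import Mathlib
import Cfsg.Prelude.Def_Transfer
import Cfsg.Agent.Helper13.HW
import Cfsg.Agent.Helper13.Glaub
import Cfsg.Agent.Helper13.PPrime
import Cfsg.Agent.Helper1.TateLift

set_option autoImplicit false

namespace Cfsg.Agent.Helper13

open Cfsg Cfsg.Agent.Helper17

section HWStable

variable {G : Type*} [Group G] [Finite G] {p : ℕ} [Fact p.Prime]

theorem hw_isPGroup_zpowers_conj {z : G} (hz : ∃ k, z ^ p ^ k = 1) (x : G) :
    IsPGroup p (Subgroup.zpowers (x⁻¹ * z * x)) := by
  obtain ⟨k, hk⟩ := hz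
  have h1 : (x⁻¹ * z * x) ^ p ^ k = 1 := by
    have : x⁻¹ * z * x = x⁻¹ * z * x⁻¹⁻¹ := by rw [inv_inv]
    rw [this, conj_pow, hk]; group
  obtain ⟨j, -, hj⟩ := (Nat.dvd_prime_pow Fact.out).mp (orderOf_dvd_of_pow_eq_one h1)
  exact IsPGroup.of_card (n := j) (by rw [Nat.card_zpowers, hj])

/-- **Hall–Wielandt**, stability form: a function on `G` that is multiplicative on the Sylow
subgroup `P` with values in an abelian group of exponent `p`, and invariant under fusion in
`N(Q)` (for `Q` weakly closed with the Engel condition), is invariant under all fusion in `P`. -/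
theorem hw_stable (P : Sylow p G) (Q : Subgroup G) (hQ : Cfsg.IsWeaklyClosed Q (P : Subgroup G))
    (h : ∀ u ∈ (P : Subgroup G), ∀ z ∈ Q, (fun y : G => y⁻¹ * z⁻¹ * y * z)^[p - 1] u = 1)
    {C : Type*} [CommGroup C] (hC : ∀ c : C, c ^ p = 1)
    (φ : G → C) (hφ : ∀ a ∈ (P : Subgroup G), ∀ b ∈ (P : Subgroup G), φ (a * b) = φ a * φ b)
    (hH : ∀ n ∈ Subgroup.normalizer (Q : Set G), ∀ u ∈ (P : Subgroup G),
      n * u * n⁻¹ ∈ (P : Subgroup G) → φ (n * u * n⁻¹) = φ u) :
    ∀ (g u : G), u ∈ (P : Subgroup G) → g * u * g⁻¹ ∈ (P : Subgroup G) →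
      φ (g * u * g⁻¹) = φ u := by
  have hp : p.Prime := Fact.out
  have hφ1 : φ 1 = 1 := by
    have h1 := hφ 1 (one_mem _) 1 (one_mem _)
    rw [mul_one] at h1
    exact left_eq_mul.mp h1
  have hPst : ∀ y ∈ (P : Subgroup G), ∀ d ∈ (P : Subgroup G), φ (y * d * y⁻¹) = φ d := by
    intro y hy d hd
    rw [hφ _ (mul_mem hy hd) _ (inv_mem hy), hφ _ hy _ hd, mul_comm (φ y), mul_assoc,
      ← hφ _ hy _ (inv_mem hy), mul_inv_cancel, hφ1, mul_one]
  have hPN : (P : Subgroup G) ≤ Subgroup.normalizer (Q : Set G) := by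
    intro x hx
    apply mem_normalizer_of_cj_eq_self
    apply hQ.2
    intro y hy
    rw [mem_cj] at hy
    have : y = x * (x⁻¹ * y * x) * x⁻¹ := by group
    rw [this]
    exact mul_mem (mul_mem hx (hQ.1 hy)) (inv_mem hx)
  intro g u hu hgu
  let Φ : Subgroup G → G → Prop := fun E g => ∀ d ∈ E, φ (g * d * g⁻¹) = φ d
  have key := gen_up P Φ
    (fun E _ d _ => by show φ (1 * d * 1⁻¹) = φ d; rw [one_mul, inv_one, mul_one])
    (fun E g₁ g₂ h1 h2 d hd => by
      show φ (g₂ * g₁ * d * (g₂ * g₁)⁻¹) = φ d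
      have h3 := h2 (g₁ * d * g₁⁻¹) (conj_mem_cj hd)
      rw [← h1 d hd, ← h3]
      congr 1; group)
    (fun E E' g h1 hle d hd => h1 d (hle hd))
    (fun E g k h1 hk d hd => by
      show φ (k * d * k⁻¹) = φ d
      rw [hk d hd]; exact h1 d hd)
    ?_ (Subgroup.zpowers u) (Subgroup.zpowers_le.mpr hu) g ?_
  · exact key u (Subgroup.mem_zpowers u)
  · intro D hD htame hIH x hx
    show ∀ d ∈ D, φ (x * d * x⁻¹) = φ d
    have hxD : ∀ d ∈ D, x * d * x⁻¹ ∈ D := fun d hd =>
      (Subgroup.mem_normalizer_iff.mp hx d).mp hd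
    by_cases hQD : Q ≤ D
    · have hxQ : x ∈ Subgroup.normalizer (Q : Set G) := by
        apply mem_normalizer_of_cj_eq_self
        apply hQ.2
        refine le_trans (cj_mono hQD) ?_
        rw [cj_eq_self_of_mem_normalizer hx]; exact hD
      intro d hd
      exact hH x hxQ d (hD hd) (hD (hxD d hd))
    · have hlt : D < Q ⊔ D := by
        refine lt_of_le_of_ne le_sup_right ?_
        intro heq
        apply hQD
        rw [heq]; exact le_sup_left
      have hR : IsPGroup p (Q ⊔ D : Subgroup G) := P.2.to_le (sup_le hQ.1 hD)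
      have hlt2 := lt_normalizer_inf_of_lt hR hlt
      obtain ⟨y, hy, hyD⟩ := SetLike.exists_of_lt hlt2
      obtain ⟨z, hzQ, d₀, hd₀, rfl⟩ :=
        mem_sup_of_le_normalizer (hD.trans hPN) (Subgroup.mem_inf.mp hy).2
      have hzN : z ∈ Subgroup.normalizer (D : Set G) := by
        have h1 := mul_mem (Subgroup.mem_inf.mp hy).1 (inv_mem (Subgroup.le_normalizer hd₀))
        rwa [mul_inv_cancel_right] at h1
      have hzD : z ∉ D := fun hz => hyD (mul_mem hz hd₀)
      have hzP : z ∈ (P : Subgroup G) := hQ.1 hzQ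
      let YG : Subgroup G :=
        { carrier := {y | y ∈ Subgroup.normalizer (D : Set G) ∧ ∀ d ∈ D, φ (y * d * y⁻¹) = φ d}
          one_mem' := ⟨one_mem _, fun d _ => by rw [one_mul, inv_one, mul_one]⟩
          mul_mem' := by
            rintro a b ⟨ha, ha'⟩ ⟨hb, hb'⟩
            refine ⟨mul_mem ha hb, fun d hd => ?_⟩
            have h1 : b * d * b⁻¹ ∈ D := (Subgroup.mem_normalizer_iff.mp hb d).mp hd
            rw [← hb' d hd, ← ha' _ h1]
            congr 1; group
          inv_mem' := by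
            rintro a ⟨ha, ha'⟩
            refine ⟨inv_mem ha, fun d hd => ?_⟩
            have h1 : a⁻¹ * d * a⁻¹⁻¹ ∈ D :=
              (Subgroup.mem_normalizer_iff.mp (inv_mem ha) d).mp hd
            rw [← ha' _ h1]
            congr 1; group }
      have hYG : ∀ y, y ∈ YG ↔
          y ∈ Subgroup.normalizer (D : Set G) ∧ ∀ d ∈ D, φ (y * d * y⁻¹) = φ d :=
        fun y => Iff.rfl
      have hYGle : YG ≤ Subgroup.normalizer (D : Set G) := fun y hy => hy.1
      have hNP : (P : Subgroup G) ⊓ Subgroup.normalizer (D : Set G) ≤ YG := by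
        intro y hy
        exact ⟨hy.2, fun d hd => hPst y hy.1 d (hD hd)⟩
      have hzp : ∃ k, z ^ p ^ k = 1 := by
        obtain ⟨k, hk⟩ := P.2 ⟨z, hzP⟩
        exact ⟨k, by simpa using congrArg Subtype.val hk⟩
      have hb : ∀ w ∈ Subgroup.normalizer (D : Set G), w * z * w⁻¹ ∈ (P : Subgroup G) →
          w ∈ YG := by
        intro w hw hwz
        refine ⟨hw, ?_⟩
        have hE : D ⊔ Subgroup.zpowers z ≤ (P : Subgroup G) :=
          sup_le hD (Subgroup.zpowers_le.mpr hzP)
        have hDE : D < D ⊔ Subgroup.zpowers z := by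
          refine lt_of_le_of_ne le_sup_left ?_
          intro heq
          apply hzD
          rw [heq]
          exact (le_sup_right : Subgroup.zpowers z ≤ D ⊔ Subgroup.zpowers z)
            (Subgroup.mem_zpowers z)
        have hcjE : cj w (D ⊔ Subgroup.zpowers z) ≤ (P : Subgroup G) := by
          rw [cj, Subgroup.map_sup]
          refine sup_le ?_ ?_
          · have h1 : cj w D = D := cj_eq_self_of_mem_normalizer hw
            rw [show Subgroup.map (MulAut.conj w).toMonoidHom D = D from h1]; exact hD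
          · rw [MonoidHom.map_zpowers]
            exact Subgroup.zpowers_le.mpr hwz
        have h1 := hIH _ hE (card_lt_of_lt' hDE) w hcjE
        intro d hd
        exact h1 d ((le_sup_left : D ≤ D ⊔ Subgroup.zpowers z) hd)
      have hcore := hw_core (X := ↥(Subgroup.normalizer (D : Set G))) (p := p) hC
        (D.subgroupOf (Subgroup.normalizer (D : Set G)))
        (fun x' => φ (x' : G))
        (by
          intro a ha b hb
          exact hφ _ (hD (Subgroup.mem_subgroupOf.mp ha)) _ (hD (Subgroup.mem_subgroupOf.mp hb)))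
        (YG.subgroupOf (Subgroup.normalizer (D : Set G)))
        (by
          intro y
          rw [Subgroup.mem_subgroupOf, hYG]
          constructor
          · intro hy d hd
            exact hy.2 (d : G) (Subgroup.mem_subgroupOf.mp hd)
          · intro hy
            refine ⟨y.2, fun d hd => ?_⟩
            exact hy ⟨d, Subgroup.le_normalizer hd⟩ (Subgroup.mem_subgroupOf.mpr hd))
        ⟨z, hzN⟩
        (by
          obtain ⟨k, hk⟩ := hzp
          exact ⟨k, Subtype.ext (by simpa using hk)⟩)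
        (Subgroup.mem_subgroupOf.mpr (hNP ⟨hzP, hzN⟩))
        (by
          intro x' hx'
          rw [Subgroup.mem_subgroupOf] at hx' ⊢
          have hv : (x' : G)⁻¹ * z * (x' : G) ∈ YG := hx'
          have hidx : ¬ p ∣ ((P : Subgroup G) ⊓ Subgroup.normalizer (D : Set G)).relIndex YG := by
            intro hdvd
            apply htame
            rw [← Subgroup.relIndex_mul_relIndex _ _ _ hNP hYGle]
            exact Dvd.dvd.mul_right hdvd _
          obtain ⟨y, hy, hyv⟩ := exists_conj_le_of_relIndex YG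
            ((P : Subgroup G) ⊓ Subgroup.normalizer (D : Set G))
            (Subgroup.zpowers ((x' : G)⁻¹ * z * (x' : G)))
            (P.2.to_le inf_le_left) hidx (Subgroup.zpowers_le.mpr hv)
            (hw_isPGroup_zpowers_conj hzp _)
          have h1 := hyv _ (Subgroup.mem_zpowers _)
          have h2 : y * (x' : G)⁻¹ ∈ YG := by
            apply hb
            · exact mul_mem (hYGle hy) (inv_mem x'.2)
            · have h3 : y * (x' : G)⁻¹ * z * (y * (x' : G)⁻¹)⁻¹ =
                  y * ((x' : G)⁻¹ * z * (x' : G)) * y⁻¹ := by group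
              rw [h3]; exact h1.1
          have h4 := mul_mem (inv_mem hy) h2
          rw [inv_mul_cancel_left] at h4
          have h5 := inv_mem h4
          rwa [inv_inv] at h5)
        (by
          intro d hd
          have hco : ∀ (n : ℕ) (d' : ↥(Subgroup.normalizer (D : Set G))),
              (((fun y : ↥(Subgroup.normalizer (D : Set G)) =>
                y⁻¹ * (⟨z, hzN⟩ : ↥(Subgroup.normalizer (D : Set G)))⁻¹ * y * ⟨z, hzN⟩)^[n] d' :
                  ↥(Subgroup.normalizer (D : Set G))) : G) =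
              (fun y : G => y⁻¹ * z⁻¹ * y * z)^[n] (d' : G) := by
            intro n
            induction n with
            | zero => intro d'; rfl
            | succ n ih =>
              intro d'
              rw [Function.iterate_succ_apply, Function.iterate_succ_apply, ih]
              rfl
          apply Subtype.ext
          rw [hco]
          exact h _ (hD (Subgroup.mem_subgroupOf.mp hd)) z hzQ)
      have h6 := hcore ⟨x, hx⟩
      rw [Subgroup.mem_subgroupOf] at h6
      exact h6.2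
  · rw [show cj g (Subgroup.zpowers u) = Subgroup.zpowers (g * u * g⁻¹) from by
      rw [cj, MonoidHom.map_zpowers]; rfl]
    exact Subgroup.zpowers_le.mpr hgu

end HWStable

section HWExt

open scoped IsMulCommutative
open Cfsg.Agent.Helper1

universe u

theorem hw_le_normalizer {G : Type*} [Group G] {P Q : Subgroup G}
    (hQ : Cfsg.IsWeaklyClosed Q P) : P ≤ Subgroup.normalizer (Q : Set G) := by
  intro x hx
  apply mem_normalizer_of_cj_eq_self
  apply hQ.2
  intro y hy
  rw [mem_cj] at hy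
  have : y = x * (x⁻¹ * y * x) * x⁻¹ := by group
  rw [this]
  exact mul_mem (mul_mem hx (hQ.1 hy)) (inv_mem hx)

/-- **Hall–Wielandt**, extension form: homomorphisms from `N(Q)` to a group of order `p` extend
to `G`. -/
theorem hw_ext {G : Type*} [Group G] [Finite G] {p : ℕ} [Fact p.Prime] (P : Sylow p G)
    (Q : Subgroup G) (hQ : Cfsg.IsWeaklyClosed Q (P : Subgroup G))
    (h : ∀ u ∈ (P : Subgroup G), ∀ z ∈ Q, (fun y : G => y⁻¹ * z⁻¹ * y * z)^[p - 1] u = 1)
    {C : Type*} [CommGroup C] (hC : Nat.card C = p)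
    (χ : ↥(Subgroup.normalizer (Q : Set G)) →* C) :
    ∃ χ' : G →* C, ∀ x : ↥(Subgroup.normalizer (Q : Set G)), χ' x = χ x := by
  classical
  have hp : p.Prime := Fact.out
  have : Finite C := Nat.finite_of_card_ne_zero (by rw [hC]; exact hp.ne_zero)
  have hCp : ∀ c : C, c ^ p = 1 := fun c => by rw [← hC]; exact pow_card_eq_one'
  have hPN : (P : Subgroup G) ≤ Subgroup.normalizer (Q : Set G) := hw_le_normalizer hQ
  let φ : G → C := fun x => if hx : x ∈ (P : Subgroup G) then χ ⟨x, hPN hx⟩ else 1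
  have hφP : ∀ x (hx : x ∈ (P : Subgroup G)), φ x = χ ⟨x, hPN hx⟩ := fun x hx => dif_pos hx
  have hφ : ∀ a ∈ (P : Subgroup G), ∀ b ∈ (P : Subgroup G), φ (a * b) = φ a * φ b := by
    intro a ha b hb
    rw [hφP _ (mul_mem ha hb), hφP _ ha, hφP _ hb, ← map_mul]; rfl
  have hH : ∀ n ∈ Subgroup.normalizer (Q : Set G), ∀ u ∈ (P : Subgroup G),
      n * u * n⁻¹ ∈ (P : Subgroup G) → φ (n * u * n⁻¹) = φ u := by
    intro n hn u hu hnu
    rw [hφP _ hnu, hφP _ hu]
    have h1 : (⟨n * u * n⁻¹, hPN hnu⟩ : ↥(Subgroup.normalizer (Q : Set G))) =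
        ⟨n, hn⟩ * ⟨u, hPN hu⟩ * ⟨n, hn⟩⁻¹ := rfl
    rw [h1, map_mul, map_mul, map_inv, mul_comm, inv_mul_cancel_left]
  have hst := hw_stable P Q hQ h hCp φ hφ hH
  let θ : (P : Subgroup G) →* C := χ.comp (Subgroup.inclusion hPN)
  have hθ : ∀ x : (P : Subgroup G), θ x = φ (x : G) := by
    intro x
    rw [hφP _ x.2]; rfl
  have hφ1 : φ 1 = 1 := by
    rw [hφP 1 (one_mem _)]; exact map_one χ
  have hker : (P : Subgroup G).focalSubgroupOf ≤ θ.ker := by
    rw [Subgroup.focalSubgroupOf_eq_closure, Subgroup.closure_le]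
    rintro g ⟨x, hx, u, hgu⟩
    show θ g = 1
    rw [hθ, hgu, commutatorElement_def]
    have h1 : u * x⁻¹ * u⁻¹ ∈ (P : Subgroup G) := by
      have h2 : u * x⁻¹ * u⁻¹ = x⁻¹ * (g : G) := by rw [hgu, commutatorElement_def]; group
      rw [h2]; exact mul_mem (inv_mem hx) g.2
    have h3 : x * u * x⁻¹ * u⁻¹ = x * (u * x⁻¹ * u⁻¹) := by group
    rw [h3, hφ _ hx _ h1, hst u x⁻¹ (inv_mem hx) h1, ← hφ _ hx _ (inv_mem hx), mul_inv_cancel,
      hφ1]
  let θ' : (P : Subgroup G) ⧸ (P : Subgroup G).focalSubgroupOf →* C :=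
    QuotientGroup.lift _ θ hker
  let T : G →* C := θ'.comp (P : Subgroup G).transferFocal
  have hT : ∀ x : (P : Subgroup G), T x = θ x ^ (P : Subgroup G).index := by
    intro x
    show θ' ((P : Subgroup G).transferFocal x) = _
    rw [Subgroup.transferFocal_eq_pow, map_pow]
    rfl
  have hcopP : (Nat.card C).Coprime (P : Subgroup G).index := by
    rw [hC]; exact (Nat.Prime.coprime_iff_not_dvd hp).mpr P.not_dvd_index
  have hbij : Function.Bijective (powMonoidHom (P : Subgroup G).index : C →* C) :=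
    Nat.Coprime.pow_left_bijective hcopP
  let E : C ≃* C := MulEquiv.ofBijective _ hbij
  let χ₁ : G →* C := E.symm.toMonoidHom.comp T
  have hχ₁ : ∀ x : (P : Subgroup G), χ₁ x = θ x := by
    intro x
    show E.symm (T x) = θ x
    rw [hT x]; exact E.symm_apply_apply (θ x)
  have hcopV : ((P : Subgroup G).subgroupOf (Subgroup.normalizer (Q : Set G))).index.Coprime p := by
    have h1 : ((P : Subgroup G).subgroupOf (Subgroup.normalizer (Q : Set G))).index ∣
        (P : Subgroup G).index := Subgroup.relIndex_dvd_index_of_le hPN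
    exact Nat.Coprime.coprime_dvd_left h1
      ((Nat.Prime.coprime_iff_not_dvd hp).mpr P.not_dvd_index).symm
  have h1 : χ₁.comp (Subgroup.normalizer (Q : Set G)).subtype = χ := by
    apply hom_eq_of_eq_on_coprime_index hC
      ((P : Subgroup G).subgroupOf (Subgroup.normalizer (Q : Set G))) hcopV
    intro x hx
    exact hχ₁ ⟨(x : G), Subgroup.mem_subgroupOf.mp hx⟩
  exact ⟨χ₁, fun v => DFunLike.congr_fun h1 v⟩

/-- **Hall–Wielandt theorem**: if `Q` is weakly closed in the Sylow `p`-subgroup `P` and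
`[u, z; p-1] = 1` for `u ∈ P`, `z ∈ Q`, then `O^p(N(Q)) = O^p(G) ∩ N(Q)`. -/
theorem hw_residual {G : Type u} [Group G] [Finite G] {p : ℕ} [Fact p.Prime] (P : Sylow p G)
    (Q : Subgroup G) (hQ : Cfsg.IsWeaklyClosed Q (P : Subgroup G))
    (h : ∀ u ∈ (P : Subgroup G), ∀ z ∈ Q, (fun y : G => y⁻¹ * z⁻¹ * y * z)^[p - 1] u = 1) :
    Cfsg.pResidualOf p (Subgroup.normalizer (Q : Set G)) =
      Cfsg.pResidual p G ⊓ Subgroup.normalizer (Q : Set G) := by
  have hp : p.Prime := Fact.out
  have hPV : (P : Subgroup G) ≤ Subgroup.normalizer (Q : Set G) := hw_le_normalizer hQ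
  have hext : ∀ (C : Type u) [Group C], Nat.card C = p →
      ∀ χ : ↥(Subgroup.normalizer (Q : Set G)) →* C,
      ∃ χ' : G →* C, ∀ x : ↥(Subgroup.normalizer (Q : Set G)), χ' x = χ x := by
    intro C _ hC χ
    have : IsCyclic C := isCyclic_of_prime_card hC
    exact @hw_ext G _ _ p _ P Q hQ h C IsCyclic.commGroup hC χ
  obtain ⟨V, hV⟩ : ∃ V, V = Subgroup.normalizer (Q : Set G) := ⟨_, rfl⟩
  rw [← hV] at hPV hext ⊢
  have hVidx : V.index.Coprime p :=
    Nat.Coprime.coprime_dvd_left (Subgroup.index_dvd_of_le hPV)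
      ((Nat.Prime.coprime_iff_not_dvd hp).mpr P.not_dvd_index).symm
  have := pResidual_characteristic p V
  have hQ' : IsPGroup p (V ⧸ Cfsg.pResidual p V) := by
    obtain ⟨a, ha⟩ := index_pResidual (G := V) p
    apply IsPGroup.of_card (n := a)
    rw [← ha, Subgroup.index_eq_card]
  obtain ⟨ψ, hψ⟩ := tate_lift p V hVidx hext (V ⧸ Cfsg.pResidual p V) hQ'
    (QuotientGroup.mk' (Cfsg.pResidual p V))
  have hres : Cfsg.pResidual p G ≤ ψ.ker := by
    show Subgroup.closure {g : G | Nat.Coprime (orderOf g) p} ≤ ψ.ker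
    rw [Subgroup.closure_le]
    intro g hg
    have hg' : Nat.Coprime (orderOf g) p := hg
    obtain ⟨k, hk⟩ := hQ' (ψ g)
    have h1 : orderOf (ψ g) ∣ p ^ k := orderOf_dvd_of_pow_eq_one hk
    have h2 : orderOf (ψ g) ∣ orderOf g := orderOf_map_dvd ψ g
    have h3 : (orderOf (ψ g)).Coprime (p ^ k) :=
      Nat.Coprime.pow_right k (Nat.Coprime.coprime_dvd_left h2 hg')
    have h4 : orderOf (ψ g) = 1 := Nat.Coprime.eq_one_of_dvd h3 h1
    exact MonoidHom.mem_ker.mpr (orderOf_eq_one_iff.mp h4)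
  apply le_antisymm
  · refine le_inf ?_ ?_
    · show (Cfsg.pResidual p V).map V.subtype ≤ _
      rw [Subgroup.map_le_iff_le_comap]
      show Subgroup.closure {v : V | Nat.Coprime (orderOf v) p} ≤
        Subgroup.comap V.subtype (Cfsg.pResidual p G)
      rw [Subgroup.closure_le]
      intro v hv
      have hv' : Nat.Coprime (orderOf v) p := hv
      show (v : G) ∈ Subgroup.closure {g : G | Nat.Coprime (orderOf g) p}
      apply Subgroup.subset_closure
      show Nat.Coprime (orderOf (v : G)) p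
      rw [Subgroup.orderOf_coe]; exact hv'
    · rintro _ ⟨v, -, rfl⟩; exact v.2
  · rintro x ⟨hxR, hxV⟩
    have h1 : ψ x = 1 := MonoidHom.mem_ker.mp (hres hxR)
    have h2 := hψ ⟨x, hxV⟩
    rw [h1] at h2
    have h3 : (⟨x, hxV⟩ : V) ∈ Cfsg.pResidual p V :=
      (QuotientGroup.eq_one_iff _).mp h2.symm
    exact Subgroup.mem_map.mpr ⟨_, h3, rfl⟩

end HWExt

end Cfsg.Agent.Helper13
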