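import Mathlib

set_option autoImplicit false

namespace Cfsg.Agent.Helper13

/-- a fixed-point-free involution inverts a finite normal subgroup -/
theorem fpf_inverts {H : Type*} [Group H] [Finite H] (N : Subgroup H) [hNn : N.Normal] (e : H)
    (he2 : e * e = 1) (hfix : N ⊓ Subgroup.centralizer ({e} : Set H) = ⊥) :
    ∀ n ∈ N, e * n * e⁻¹ = n⁻¹ := by
  have hei : e⁻¹ = e := inv_eq_of_mul_eq_one_left he2
  have hconj : ∀ n ∈ N, e * n * e ∈ N := by
    intro n hn
    have := hNn.conj_mem n hn e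
    rwa [hei] at this
  let f : N → N := fun n => ⟨(n : H)⁻¹ * (e * n * e), N.mul_mem (N.inv_mem n.2) (hconj n n.2)⟩
  have hinj : Function.Injective f := by
    intro a b hab
    have hab' : (a : H)⁻¹ * (e * a * e) = (b : H)⁻¹ * (e * b * e) := congrArg Subtype.val hab
    have h1 : (b : H) * (a : H)⁻¹ ∈ N ⊓ Subgroup.centralizer ({e} : Set H) := by
      refine Subgroup.mem_inf.mpr ⟨N.mul_mem b.2 (N.inv_mem a.2), ?_⟩
      rw [Subgroup.mem_centralizer_iff]
      intro h0 hh0
      rw [Set.mem_singleton_iff.mp hh0]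
      have h2 : (b : H) * (a : H)⁻¹ * (e * a * e) = e * b * e := by
        rw [mul_assoc, hab']; group
      have h3 : (b : H) * (a : H)⁻¹ * e = e * (b * (a : H)⁻¹) * (e * e) := by
        calc (b : H) * (a : H)⁻¹ * e = (b : H) * (a : H)⁻¹ * (e * a * e) * (e⁻¹ * (a : H)⁻¹) := by group
          _ = e * b * e * (e⁻¹ * (a : H)⁻¹) := by rw [h2]
          _ = e * (b * (a : H)⁻¹) * (e * e) := by rw [he2]; group
      rw [he2, mul_one] at h3
      exact h3.symm
    rw [hfix, Subgroup.mem_bot] at h1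
    apply Subtype.ext
    exact (mul_inv_eq_one.mp h1).symm
  have hsurj := Finite.surjective_of_injective hinj
  intro m hm
  obtain ⟨n, hn⟩ := hsurj ⟨m, hm⟩
  have hn' : (n : H)⁻¹ * (e * n * e) = m := congrArg Subtype.val hn
  rw [hei, ← hn']
  calc e * ((n : H)⁻¹ * (e * n * e)) * e = e * (n : H)⁻¹ * e * n * (e * e) := by group
    _ = e * (n : H)⁻¹ * e * n := by rw [he2, mul_one]
    _ = e⁻¹ * (n : H)⁻¹ * e⁻¹ * n := by rw [hei]
    _ = ((n : H)⁻¹ * (e * n * e))⁻¹ := by group

theorem klein_exists_third {H : Type*} [Group H] [Finite H] (z : H) (E : Subgroup H)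
    (hE : IsKleinFour ↥E) : ∃ e ∈ E, e ≠ 1 ∧ e ≠ z := by
  by_contra hcon
  push Not at hcon
  have hsub : (E : Set H) ⊆ {1, z} := by
    intro e he
    by_cases h1 : e = 1
    · exact Or.inl h1
    · exact Or.inr (hcon e he h1)
  have h4 : Nat.card E = 4 := hE.card_four
  have h5 : Nat.card E = (E : Set H).ncard := (Nat.card_coe_set_eq (E : Set H))
  have h6 : (E : Set H).ncard ≤ ({1, z} : Set H).ncard := Set.ncard_le_ncard hsub (Set.toFinite _)
  have h7 : ({1, z} : Set H).ncard ≤ 2 := by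
    refine (Set.ncard_insert_le 1 {z}).trans ?_
    rw [Set.ncard_singleton]
  omega

/-- the common core of S2008 / S2009 -/
theorem klein_core {H : Type*} [Group H] [Finite H] (z : H) (hz : orderOf z = 2)
    (hN : ∀ N : Subgroup H, N.Normal → N ≠ ⊤ → N ⊓ Subgroup.centralizer ({z} : Set H) = ⊥)
    (E : Subgroup H) (hE : IsKleinFour ↥E) (hzE : z ∈ E) (hc : ∀ e ∈ E, e ≠ 1 → IsConj z e)
    (N : Subgroup H) [hNn : N.Normal] (hNtop : N ≠ ⊤) : N = ⊥ := by
  have hz2 : z * z = 1 := by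
    have := pow_orderOf_eq_one z
    rwa [hz, pow_two] at this
  have hz1 : z ≠ 1 := by
    intro h
    rw [h, orderOf_one] at hz
    omega
  have hfixz := hN N hNn hNtop
  -- properties of conjugates of z
  have hconj : ∀ w : H, IsConj z w → w * w = 1 ∧ N ⊓ Subgroup.centralizer ({w} : Set H) = ⊥ := by
    intro w hw
    obtain ⟨c, rfl⟩ := isConj_iff.mp hw
    constructor
    · calc c * z * c⁻¹ * (c * z * c⁻¹) = c * (z * z) * c⁻¹ := by group
        _ = 1 := by rw [hz2]; group
    · rw [eq_bot_iff]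
      intro n hn'
      obtain ⟨hn, hnc⟩ := Subgroup.mem_inf.mp hn'
      rw [Subgroup.mem_centralizer_iff] at hnc
      have h1 := hnc _ rfl
      have h2 : c⁻¹ * n * c ∈ N ⊓ Subgroup.centralizer ({z} : Set H) := by
        refine Subgroup.mem_inf.mpr ⟨?_, ?_⟩
        · have := hNn.conj_mem n hn c⁻¹
          rwa [inv_inv] at this
        · rw [Subgroup.mem_centralizer_iff]
          intro h0 hh0
          rw [Set.mem_singleton_iff.mp hh0]
          calc z * (c⁻¹ * n * c) = c⁻¹ * (c * z * c⁻¹ * n) * c := by group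
            _ = c⁻¹ * (n * (c * z * c⁻¹)) * c := by rw [h1]
            _ = c⁻¹ * n * c * z := by group
      rw [hfixz, Subgroup.mem_bot] at h2
      rw [Subgroup.mem_bot]
      calc n = c * (c⁻¹ * n * c) * c⁻¹ := by group
        _ = 1 := by rw [h2]; group
  obtain ⟨e, heE, he1, hez⟩ := klein_exists_third z E hE
  have hze1 : z * e ≠ 1 := by
    intro h
    apply hez
    have : e = z⁻¹ := (inv_eq_of_mul_eq_one_right h).symm
    rw [this]
    exact inv_eq_of_mul_eq_one_left hz2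
  obtain ⟨hzz, hfz⟩ := hconj z (IsConj.refl z)
  obtain ⟨hee, hfe⟩ := hconj e (hc e heE he1)
  obtain ⟨hzeze, hfze⟩ := hconj (z * e) (hc (z * e) (E.mul_mem hzE heE) hze1)
  have i1 := fpf_inverts N z hzz hfz
  have i2 := fpf_inverts N e hee hfe
  have i3 := fpf_inverts N (z * e) hzeze hfze
  rw [eq_bot_iff]
  intro n hn
  rw [Subgroup.mem_bot]
  have h1 : (z * e) * n * (z * e)⁻¹ = n := by
    calc (z * e) * n * (z * e)⁻¹ = z * (e * n * e⁻¹) * z⁻¹ := by group
      _ = z * n⁻¹ * z⁻¹ := by rw [i2 n hn]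
      _ = n := by rw [i1 n⁻¹ (N.inv_mem hn), inv_inv]
  have h2 : n ∈ N ⊓ Subgroup.centralizer ({z * e} : Set H) := by
    refine Subgroup.mem_inf.mpr ⟨hn, ?_⟩
    rw [Subgroup.mem_centralizer_iff]
    intro h0 hh0
    rw [Set.mem_singleton_iff.mp hh0]
    exact mul_inv_eq_iff_eq_mul.mp h1
  rw [hfze, Subgroup.mem_bot] at h2
  exact h2

end Cfsg.Agent.Helper13
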