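import Mathlib
import Cfsg.Prelude.Def_LocalEven
import Cfsg.Agent.Helper9.KleinRec
import Cfsg.Agent.Helper13.Fusion5
import Cfsg.Agent.Helper17.Basic

set_option autoImplicit false

namespace Cfsg.Agent.Helper13

open Cfsg Cfsg.Agent.Helper17

section S4Sec

variable {Y : Type*} [Group Y] [Finite Y]

/-- a four-group `W`, an element `x` of order `3` acting on `W` without fixed points, and an
element `t` inverting `x`, normalizing `W` with `t²` centralizing `W`: the symmetric group of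
degree `4` is involved. -/
theorem s4_involved_of_klein (W : Subgroup Y) (hW4 : Nat.card W = 4) (hW2 : ∀ w ∈ W, w * w = 1)
    (x t : Y) (hx3 : x ^ 3 = 1) (hxW : x ∈ Subgroup.normalizer (W : Set Y))
    (htW : t ∈ Subgroup.normalizer (W : Set Y))
    (hfix : ∀ w ∈ W, x * w * x⁻¹ = w → w = 1) (hinv : t * x * t⁻¹ = x⁻¹)
    (ht2 : t ^ 2 ∈ Subgroup.centralizer (W : Set Y)) :
    Cfsg.Involves (Equiv.Perm (Fin 4)) Y := by
  classical
  have hWcomm : ∀ a ∈ W, ∀ b ∈ W, a * b = b * a := by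
    intro a ha b hb
    have h1 := hW2 (a * b) (W.mul_mem ha hb)
    have ha' : a⁻¹ = a := inv_eq_of_mul_eq_one_left (hW2 a ha)
    have hb' : b⁻¹ = b := inv_eq_of_mul_eq_one_left (hW2 b hb)
    calc a * b = (a * b)⁻¹ := (inv_eq_of_mul_eq_one_left h1).symm
      _ = b⁻¹ * a⁻¹ := mul_inv_rev a b
      _ = b * a := by rw [ha', hb']
  have hWC : W ≤ Subgroup.centralizer (W : Set Y) := by
    intro a ha
    rw [Subgroup.mem_centralizer_iff]
    intro b hb
    exact hWcomm b hb a ha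
  obtain ⟨U, hU⟩ : ∃ U : Subgroup Y, U = Subgroup.zpowers x ⊔ Subgroup.zpowers t := ⟨_, rfl⟩
  have hxU : x ∈ U := hU ▸ (le_sup_left : Subgroup.zpowers x ≤ _) (Subgroup.mem_zpowers x)
  have htU : t ∈ U := hU ▸ (le_sup_right : Subgroup.zpowers t ≤ _) (Subgroup.mem_zpowers t)
  have hUW : U ≤ Subgroup.normalizer (W : Set Y) := by
    rw [hU]; exact sup_le (Subgroup.zpowers_le.mpr hxW) (Subgroup.zpowers_le.mpr htW)
  have hUx : U ≤ Subgroup.normalizer ((Subgroup.zpowers x : Subgroup Y) : Set Y) := by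
    rw [hU]
    refine sup_le Subgroup.le_normalizer (Subgroup.zpowers_le.mpr ?_)
    apply mem_normalizer_of_cj_eq_self
    rw [show cj t (Subgroup.zpowers x) = Subgroup.zpowers (t * x * t⁻¹) from by
      rw [cj, MonoidHom.map_zpowers]; rfl, hinv, Subgroup.zpowers_inv]
  obtain ⟨R, hR⟩ : ∃ R : Subgroup Y, R = U ⊓ Subgroup.centralizer (W : Set Y) := ⟨_, rfl⟩
  obtain ⟨K, hK⟩ : ∃ K : Subgroup Y, K = W ⊔ U := ⟨_, rfl⟩
  have hWK : W ≤ K := hK ▸ le_sup_left
  have hUK : U ≤ K := hK ▸ le_sup_right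
  have hRU : R ≤ U := hR ▸ inf_le_left
  have hRC : R ≤ Subgroup.centralizer (W : Set Y) := hR ▸ inf_le_right
  have hRK : R ≤ K := hRU.trans hUK
  have hKW : K ≤ Subgroup.normalizer (W : Set Y) := by
    rw [hK]; exact sup_le Subgroup.le_normalizer hUW
  have hconjW : ∀ k ∈ K, ∀ w ∈ W, k * w * k⁻¹ ∈ W := fun k hk w hw =>
    (Subgroup.mem_normalizer_iff.mp (hKW hk) w).mp hw
  have hUWbot : ∀ u ∈ U, u ∈ W → u = 1 := by
    intro u hu huW
    apply hfix u huW
    have h1 : x * u * x⁻¹ * u⁻¹ ∈ W :=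
      W.mul_mem ((Subgroup.mem_normalizer_iff.mp hxW u).mp huW) (W.inv_mem huW)
    have h2 : x * u * x⁻¹ * u⁻¹ ∈ Subgroup.zpowers x := by
      have h3 : u * x⁻¹ * u⁻¹ ∈ Subgroup.zpowers x :=
        (Subgroup.mem_normalizer_iff.mp (hUx hu) x⁻¹).mp
          (Subgroup.inv_mem _ (Subgroup.mem_zpowers x))
      have h4 := Subgroup.mul_mem _ (Subgroup.mem_zpowers x) h3
      have e : x * (u * x⁻¹ * u⁻¹) = x * u * x⁻¹ * u⁻¹ := by group
      rwa [e] at h4
    have h5 : (x * u * x⁻¹ * u⁻¹) ^ 3 = 1 := by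
      obtain ⟨k, hk⟩ := Subgroup.mem_zpowers_iff.mp h2
      rw [← hk, ← zpow_natCast, ← zpow_mul, mul_comm, zpow_mul, zpow_natCast, hx3, one_zpow]
    have h6 := hW2 _ h1
    have h7 : x * u * x⁻¹ * u⁻¹ = 1 := by
      rw [pow_succ, pow_two, h6, one_mul] at h5
      exact h5
    exact mul_inv_eq_one.mp h7
  have hRWbot : ∀ r ∈ R, r ∈ W → r = 1 := fun r hr hrW => hUWbot r (hRU hr) hrW
  -- `R` is normal in `K`
  have hKR : K ≤ Subgroup.normalizer (R : Set Y) := by
    rw [hK]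
    refine sup_le ?_ ?_
    · intro w hw
      rw [Subgroup.mem_normalizer_iff]
      intro r
      have key : ∀ w' ∈ W, ∀ r ∈ R, w' * r * w'⁻¹ = r := by
        intro w' hw' r hr
        have h1 := Subgroup.mem_centralizer_iff.mp (hRC hr) w' hw'
        rw [h1, mul_inv_cancel_right]
      constructor
      · intro hr; rw [key w hw r hr]; exact hr
      · intro hr
        have h1 := key w⁻¹ (W.inv_mem hw) _ hr
        have e : w⁻¹ * (w * r * w⁻¹) * w⁻¹⁻¹ = r := by group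
        rw [e] at h1
        rw [h1]; exact hr
    · intro u hu
      have hun : u ∈ Subgroup.normalizer (W : Set Y) := hUW hu
      have key : ∀ v ∈ U, v ∈ Subgroup.normalizer (W : Set Y) → ∀ r ∈ R, v * r * v⁻¹ ∈ R := by
        intro v hv hvn r hr
        rw [hR]
        refine Subgroup.mem_inf.mpr ⟨U.mul_mem (U.mul_mem hv (hRU hr)) (U.inv_mem hv), ?_⟩
        rw [Subgroup.mem_centralizer_iff]
        intro w hw
        have hw' : v⁻¹ * w * v ∈ W := by
          have := (Subgroup.mem_normalizer_iff.mp (inv_mem hvn) w).mp hw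
          rwa [inv_inv] at this
        have h1 := Subgroup.mem_centralizer_iff.mp (hRC hr) _ hw'
        calc w * (v * r * v⁻¹) = v * ((v⁻¹ * w * v) * r) * v⁻¹ := by group
          _ = v * (r * (v⁻¹ * w * v)) * v⁻¹ := by rw [h1]
          _ = v * r * v⁻¹ * w := by group
      rw [Subgroup.mem_normalizer_iff]
      intro r
      constructor
      · exact key u hu hun r
      · intro hr
        have h1 := key u⁻¹ (U.inv_mem hu) (inv_mem hun) _ hr
        have e : u⁻¹ * (u * r * u⁻¹) * u⁻¹⁻¹ = r := by group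
        rwa [e] at h1
  have hRn : (R.subgroupOf K).Normal :=
    (Subgroup.normal_subgroupOf_iff_le_normalizer hRK).mpr hKR
  refine ⟨K, R, hRn, ?_⟩
  -- the image of `W`
  obtain ⟨f, hf⟩ : ∃ f : ↥W →* ↥K ⧸ R.subgroupOf K,
      f = (QuotientGroup.mk' (R.subgroupOf K)).comp (Subgroup.inclusion hWK) := ⟨_, rfl⟩
  have hfapp : ∀ w : ↥W, f w = QuotientGroup.mk (⟨(w : Y), hWK w.2⟩ : ↥K) := by
    intro w; rw [hf]; rfl
  have hmk1 : ∀ k : ↥K, (QuotientGroup.mk k : ↥K ⧸ R.subgroupOf K) = 1 ↔ (k : Y) ∈ R := by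
    intro k
    rw [QuotientGroup.eq_one_iff, Subgroup.mem_subgroupOf]
  have hfinj : Function.Injective f := by
    rw [injective_iff_map_eq_one]
    intro w hw
    rw [hfapp, hmk1] at hw
    exact Subtype.ext (hRWbot _ hw w.2)
  have hKW4 : IsKleinFour ↥W := by
    refine ⟨hW4, ?_⟩
    have h1 : Monoid.exponent ↥W ∣ 2 := by
      apply Monoid.exponent_dvd_of_forall_pow_eq_one
      intro w
      apply Subtype.ext
      rw [pow_two]
      exact hW2 w w.2
    rcases (Nat.dvd_prime Nat.prime_two).mp h1 with h | h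
    · exfalso
      have h2 : Subsingleton ↥W := Monoid.exp_eq_one_iff.mp h
      have h3 : Nat.card ↥W = 1 := Nat.card_unique
      omega
    · exact h
  obtain ⟨Wt, hWt⟩ : ∃ Wt : Subgroup (↥K ⧸ R.subgroupOf K), Wt = f.range := ⟨_, rfl⟩
  let e0 : ↥W ≃* ↥Wt := (MonoidHom.ofInjective hfinj).trans (MulEquiv.subgroupCongr hWt.symm)
  have hVt : IsKleinFour ↥Wt :=
    ⟨(Nat.card_congr e0.toEquiv).symm.trans hKW4.card_four,
      (Monoid.exponent_eq_of_mulEquiv e0).symm.trans hKW4.exponent_two⟩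
  have hmemWt : ∀ q : ↥K ⧸ R.subgroupOf K, q ∈ Wt ↔ ∃ w : ↥W, f w = q := by
    intro q; rw [hWt]; exact MonoidHom.mem_range
  have hWtn : Wt.Normal := by
    constructor
    intro n hn g
    rw [hmemWt] at hn ⊢
    obtain ⟨w, rfl⟩ := hn
    induction g using QuotientGroup.induction_on with
    | H k =>
      refine ⟨⟨(k : Y) * w * (k : Y)⁻¹, hconjW k k.2 w w.2⟩, ?_⟩
      rw [hfapp, hfapp]
      rfl
  -- elements of `K` centralizing `W` lie in `W R`
  have hCK : ∀ k ∈ K, k ∈ Subgroup.centralizer (W : Set Y) → ∃ w ∈ W, w⁻¹ * k ∈ R := by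
    intro k hk hkC
    rw [hK] at hk
    obtain ⟨w, hw, u, hu, rfl⟩ := mem_sup_of_le_normalizer hUW hk
    refine ⟨w, hw, ?_⟩
    rw [inv_mul_cancel_left, hR]
    refine Subgroup.mem_inf.mpr ⟨hu, ?_⟩
    have h1 := (Subgroup.centralizer (W : Set Y)).mul_mem
      ((Subgroup.centralizer (W : Set Y)).inv_mem (hWC hw)) hkC
    rwa [inv_mul_cancel_left] at h1
  have hC : Subgroup.centralizer (Wt : Set (↥K ⧸ R.subgroupOf K)) ≤ Wt := by
    intro g hg
    induction g using QuotientGroup.induction_on with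
    | H k =>
      have hkC : (k : Y) ∈ Subgroup.centralizer (W : Set Y) := by
        rw [Subgroup.mem_centralizer_iff]
        intro w hw
        have h1 := Subgroup.mem_centralizer_iff.mp hg (f ⟨w, hw⟩)
          ((hmemWt _).mpr ⟨⟨w, hw⟩, rfl⟩)
        rw [hfapp] at h1
        have h2 : (QuotientGroup.mk ((⟨w, hWK hw⟩ : ↥K) * k * (⟨w, hWK hw⟩ : ↥K)⁻¹ * k⁻¹) :
            ↥K ⧸ R.subgroupOf K) = 1 := by
          rw [QuotientGroup.mk_mul, QuotientGroup.mk_mul, QuotientGroup.mk_mul, QuotientGroup.mk_inv,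
            QuotientGroup.mk_inv, h1, mul_inv_cancel_right, mul_inv_cancel]
        rw [hmk1] at h2
        have h3 : w * (k : Y) * w⁻¹ * (k : Y)⁻¹ ∈ R := h2
        have h4 : w * (k : Y) * w⁻¹ * (k : Y)⁻¹ ∈ W := by
          have h5 := hconjW k k.2 w⁻¹ (W.inv_mem hw)
          have h6 := W.mul_mem hw h5
          have e : w * ((k : Y) * w⁻¹ * (k : Y)⁻¹) = w * (k : Y) * w⁻¹ * (k : Y)⁻¹ := by group
          rwa [e] at h6
        have h7 := hRWbot _ h3 h4
        have h8 : w * (k : Y) = (k : Y) * w := by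
          have h9 : w * (k : Y) * w⁻¹ = (k : Y) := mul_inv_eq_one.mp h7
          calc w * (k : Y) = (w * (k : Y) * w⁻¹) * w := by group
            _ = (k : Y) * w := by rw [h9]
        exact h8
      obtain ⟨w, hw, hwk⟩ := hCK k k.2 hkC
      rw [hmemWt]
      refine ⟨⟨w, hw⟩, ?_⟩
      rw [hfapp]
      apply QuotientGroup.eq.mpr
      rw [Subgroup.mem_subgroupOf]
      exact hwk
  -- a nontrivial element of `W`
  obtain ⟨w₀, hw₀W, hw₀⟩ : ∃ w₀ ∈ W, w₀ ≠ 1 := by
    have h1 : W ≠ ⊥ := by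
      intro h0
      rw [h0, Subgroup.card_bot] at hW4
      omega
    obtain ⟨a, ha⟩ := (Subgroup.ne_bot_iff_exists_ne_one).mp h1
    exact ⟨a, a.2, fun h => ha (Subtype.ext h)⟩
  have hxC : x ∉ Subgroup.centralizer (W : Set Y) := by
    intro hxc
    apply hw₀
    apply hfix w₀ hw₀W
    have h1 := Subgroup.mem_centralizer_iff.mp hxc w₀ hw₀W
    rw [← h1, mul_inv_cancel_right]
  have htC : t ∉ Subgroup.centralizer (W : Set Y) := by
    intro htc
    have hcomm : ∀ w ∈ W, t * w = w * t := fun w hw =>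
      (Subgroup.mem_centralizer_iff.mp htc w hw).symm
    have hxinv : x⁻¹ = x * x := by
      have h1 : x * x * x = 1 := by
        have h0 := hx3
        rw [pow_succ, pow_two] at h0
        exact h0
      exact inv_eq_of_mul_eq_one_left h1
    have key : ∀ w ∈ W, x⁻¹ * w * x = x * w * x⁻¹ := by
      intro w hw
      have hw' : x * w * x⁻¹ ∈ W := (Subgroup.mem_normalizer_iff.mp hxW w).mp hw
      have h1 := hcomm w hw
      have h2 := hcomm _ hw'
      calc x⁻¹ * w * x = t * x * t⁻¹ * w * (t * x * t⁻¹)⁻¹ := by rw [hinv, inv_inv]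
        _ = t * (x * (t⁻¹ * (w * t)) * x⁻¹) * t⁻¹ := by group
        _ = t * (x * (t⁻¹ * (t * w)) * x⁻¹) * t⁻¹ := by rw [h1]
        _ = (t * (x * w * x⁻¹)) * t⁻¹ := by group
        _ = ((x * w * x⁻¹) * t) * t⁻¹ := by rw [h2]
        _ = x * w * x⁻¹ := by group
    apply hw₀
    apply hfix w₀ hw₀W
    have h3 := key w₀ hw₀W
    have h4 := key (x * w₀ * x⁻¹) ((Subgroup.mem_normalizer_iff.mp hxW w₀).mp hw₀W)
    have e1 : x⁻¹ * (x * w₀ * x⁻¹) * x = w₀ := by group
    rw [e1] at h4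
    -- h4 : w₀ = x * (x * w₀ * x⁻¹) * x⁻¹
    have e2 : x * (x * w₀ * x⁻¹) * x⁻¹ = x⁻¹ * w₀ * x := by
      have : x * (x * w₀ * x⁻¹) * x⁻¹ = (x * x) * w₀ * (x * x)⁻¹ := by group
      rw [this, ← hxinv, inv_inv]
    rw [e2, h3] at h4
    exact h4.symm
  have hxK : x ∈ K := hUK hxU
  have htK : t ∈ K := hUK htU
  have h3 : 3 ∣ Nat.card (↥K ⧸ R.subgroupOf K) := by
    have h1 : orderOf (QuotientGroup.mk (⟨x, hxK⟩ : ↥K) : ↥K ⧸ R.subgroupOf K) = 3 := by
      haveI : Fact (Nat.Prime 3) := ⟨Nat.prime_three⟩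
      apply orderOf_eq_prime
      · rw [← QuotientGroup.mk_pow]
        have : (⟨x, hxK⟩ : ↥K) ^ 3 = 1 := Subtype.ext (by simpa using hx3)
        rw [this]; rfl
      · intro h
        rw [hmk1] at h
        exact hxC (hRC h)
    rw [← h1]
    exact orderOf_dvd_natCard _
  have h12 : Nat.card (↥K ⧸ R.subgroupOf K) ≠ 12 := by
    intro h12
    have hidx : Wt.index = 3 := by
      have h1 := Wt.card_mul_index
      rw [h12, hVt.card_four] at h1
      omega
    have h1 := Subgroup.pow_index_mem Wt (QuotientGroup.mk (⟨t, htK⟩ : ↥K) : ↥K ⧸ R.subgroupOf K)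
    rw [hidx] at h1
    have h2 : (QuotientGroup.mk (⟨t, htK⟩ : ↥K) : ↥K ⧸ R.subgroupOf K) ^ 2 = 1 := by
      rw [← QuotientGroup.mk_pow, hmk1, hR]
      exact Subgroup.mem_inf.mpr ⟨U.pow_mem htU 2, ht2⟩
    rw [pow_succ, h2, one_mul, hmemWt] at h1
    obtain ⟨w, hw⟩ := h1
    rw [hfapp] at hw
    have h4 := QuotientGroup.eq.mp hw
    rw [Subgroup.mem_subgroupOf] at h4
    have h5 : (w : Y)⁻¹ * t ∈ R := h4
    apply htC
    have h6 := (Subgroup.centralizer (W : Set Y)).mul_mem (hWC w.2) (hRC h5)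
    rwa [mul_inv_cancel_left] at h6
  exact Cfsg.Agent.Helper9.klein_recog_S4_h9 Wt hC h3 h12

end S4Sec

end Cfsg.Agent.Helper13
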