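import Mathlib
import Cfsg.Prelude.Def_LocalEven
import Cfsg.Agent.Helper13.S4F1
import Cfsg.Agent.Helper13.PPrime
import Cfsg.Agent.S0200

set_option autoImplicit false

namespace Cfsg.Agent.Helper13

open Cfsg Cfsg.Agent.Helper17

section Transv

variable {Y : Type*} [Group Y]

theorem tv_commute_of_commute_sq {x v : Y} (hodd : Odd (orderOf x))
    (h : x ^ 2 * v = v * x ^ 2) : x * v = v * x := by
  obtain ⟨k, hk⟩ := hodd
  have h1 : (x ^ 2) ^ (k + 1) = x := by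
    rw [← pow_mul, show 2 * (k + 1) = orderOf x + 1 by omega, pow_succ, pow_orderOf_eq_one,
      one_mul]
  have h2 : Commute (x ^ 2) v := h
  have h3 := h2.pow_left (k + 1)
  rw [h1] at h3
  exact h3

theorem tv_fix_comm_eq_one {x v w : Y} (hodd : Odd (orderOf x)) (hw : x * v * x⁻¹ = w * v)
    (hfix : x * w * x⁻¹ = w) (hw2 : w * w = 1) : w = 1 := by
  have key : ∀ k : ℕ, x ^ k * v * (x ^ k)⁻¹ = w ^ k * v := by
    intro k
    induction k with
    | zero => simp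
    | succ k ih =>
      have e : x ^ (k + 1) * v * (x ^ (k + 1))⁻¹ = x * (x ^ k * v * (x ^ k)⁻¹) * x⁻¹ := by
        rw [pow_succ']; group
      have e2 : x * (w ^ k * v) * x⁻¹ = (x * w * x⁻¹) ^ k * (x * v * x⁻¹) := by
        rw [conj_pow]; group
      rw [e, ih, e2, hfix, hw, pow_succ, mul_assoc]
  have h1 := key (orderOf x)
  rw [pow_orderOf_eq_one, one_mul, inv_one, mul_one] at h1
  have h2 : w ^ orderOf x = 1 :=
    mul_right_cancel (a := w ^ orderOf x) (b := v) (c := 1) (by rw [one_mul]; exact h1.symm)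
  obtain ⟨j, hj⟩ := hodd
  rw [hj, pow_succ, pow_mul, pow_two, hw2, one_pow, one_mul] at h2
  exact h2

theorem tv_mem_zpowers_of_sq {w z : Y} (hw : w * w = 1) (hz : z ∈ Subgroup.zpowers w) :
    z = 1 ∨ z = w := by
  obtain ⟨k, rfl⟩ := Subgroup.mem_zpowers_iff.mp hz
  rcases Int.even_or_odd' k with ⟨m, rfl | rfl⟩
  · left; rw [zpow_mul, zpow_two, hw, one_zpow]
  · right; rw [zpow_add, zpow_mul, zpow_two, hw, one_zpow, one_mul, zpow_one]

theorem tv_zpow_of_cube {x : Y} (hx3 : x ^ 3 = 1) (k : ℤ) :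
    x ^ k = 1 ∨ x ^ k = x ∨ x ^ k = x⁻¹ := by
  have h1 := Int.emod_add_mul_ediv k 3
  have h2 : 0 ≤ k % 3 := Int.emod_nonneg k (by norm_num)
  have h3 : k % 3 < 3 := Int.emod_lt_of_pos k (by norm_num)
  obtain ⟨r, hr⟩ : ∃ r : ℤ, r = k % 3 := ⟨_, rfl⟩
  rw [← hr] at h1 h2 h3
  have hx3' : x ^ (3 : ℤ) = 1 := by
    have : x ^ ((3 : ℕ) : ℤ) = 1 := by rw [zpow_natCast]; exact hx3
    exact this
  have h4 : x ^ k = x ^ r := by
    rw [← h1, zpow_add, zpow_mul, hx3', one_zpow, mul_one]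
  rw [h4]
  interval_cases r
  · left; exact zpow_zero x
  · right; left; exact zpow_one x
  · right; right
    rw [zpow_two]
    apply eq_inv_of_mul_eq_one_left
    have h0 := hx3
    rw [pow_succ, pow_two] at h0
    exact h0

theorem tv_card_mul_relIndex (A B : Subgroup Y) (hAB : A ≤ B) :
    Nat.card A * A.relIndex B = Nat.card B := by
  have h1 := Subgroup.relIndex_mul_relIndex ⊥ A B bot_le hAB
  rwa [Subgroup.relIndex_bot_left, Subgroup.relIndex_bot_left] at h1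

theorem tv_relIndex_le_two [Finite Y] (A B : Subgroup Y) (hAB : A ≤ B)
    (h : Nat.card B ≤ 2 * Nat.card A) : A.relIndex B ≤ 2 := by
  have h1 := tv_card_mul_relIndex A B hAB
  have h2 : 0 < Nat.card A := Nat.card_pos
  rw [← h1, mul_comm 2] at h
  exact Nat.le_of_mul_le_mul_left h h2

variable [Finite Y]

/-- a normal `2`-subgroup `H` containing its centralizer-image on a normal elementary abelian
subgroup `V` on which an element `b` outside `H` acts as a transvection: the symmetric group of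
degree `4` is involved. -/
theorem s4_of_transvection (H V V₀ : Subgroup Y) [hHn : H.Normal] [hVn : V.Normal]
    (hH2 : IsPGroup 2 H) (hVH : V ≤ H)
    (hVc : H ≤ Subgroup.centralizer (V : Set Y))
    (hV2 : ∀ v ∈ V, v * v = 1) (hCV : Subgroup.centralizer (V : Set Y) ≤ H)
    (hO2 : ∀ N : Subgroup Y, N.Normal → IsPGroup 2 N → N ≤ H)
    (b : Y) (hb : b ∉ H) (hb2 : b ^ 2 ∈ H) (hV₀ : V₀ ≤ V)
    (hV₀b : ∀ v ∈ V₀, b * v = v * b) (hidx : Nat.card V ≤ 2 * Nat.card V₀) :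
    Cfsg.Involves (Equiv.Perm (Fin 4)) Y := by
  classical
  have hVcomm : ∀ u ∈ V, ∀ v ∈ V, u * v = v * u := fun u hu v hv =>
    Subgroup.mem_centralizer_iff.mp (hVc (hVH hv)) u hu
  have hconjV : ∀ g : Y, ∀ v ∈ V, g * v * g⁻¹ ∈ V := fun g v hv => hVn.conj_mem v hv g
  -- the involution in the quotient
  have hbq1 : (QuotientGroup.mk b : Y ⧸ H) ≠ 1 := fun h => hb ((QuotientGroup.eq_one_iff b).mp h)
  have hbq2 : (QuotientGroup.mk b : Y ⧸ H) ^ 2 = 1 := by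
    rw [← QuotientGroup.mk_pow]; exact (QuotientGroup.eq_one_iff _).mpr hb2
  have hbo : orderOf (QuotientGroup.mk b : Y ⧸ H) = 2 := by
    haveI : Fact (Nat.Prime 2) := ⟨Nat.prime_two⟩
    exact orderOf_eq_prime hbq2 hbq1
  have hO : ∀ N : Subgroup (Y ⧸ H), N.Normal → IsPGroup 2 N →
      (QuotientGroup.mk b : Y ⧸ H) ∉ N := by
    intro N hNn hNp hbN
    have h1 : N.comap (QuotientGroup.mk' H) ≤ H := by
      apply hO2 _ (hNn.comap _)
      intro ⟨y, hy⟩
      obtain ⟨k, hk⟩ := exists_pow_of_isPGroup hNp (y := (QuotientGroup.mk y : Y ⧸ H)) hy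
      have h2 : y ^ 2 ^ k ∈ H := by
        rw [← QuotientGroup.eq_one_iff, QuotientGroup.mk_pow]; exact hk
      obtain ⟨j, hj⟩ := exists_pow_of_isPGroup hH2 h2
      refine ⟨k + j, ?_⟩
      apply Subtype.ext
      show y ^ 2 ^ (k + j) = 1
      rw [pow_add, pow_mul]; exact hj
    exact hb (h1 hbN)
  obtain ⟨hq, hq1, hqodd, hqinv⟩ :=
    Cfsg.Agent.S0200.result (QuotientGroup.mk b : Y ⧸ H) hbo hO
  obtain ⟨h, rfl⟩ := QuotientGroup.mk_surjective hq
  obtain ⟨a, ha⟩ := IsPGroup.iff_card.mp hH2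
  obtain ⟨x, hx⟩ : ∃ x : Y, x = h ^ Nat.card H := ⟨_, rfl⟩
  obtain ⟨n, hn⟩ : ∃ n, n = orderOf (QuotientGroup.mk h : Y ⧸ H) := ⟨_, rfl⟩
  have hnodd : Odd n := hn ▸ hqodd
  have hhn : h ^ n ∈ H := by
    rw [← QuotientGroup.eq_one_iff, QuotientGroup.mk_pow, hn, pow_orderOf_eq_one]
  have hxn : x ^ n = 1 := by
    rw [hx, ← pow_mul, mul_comm, pow_mul]
    have h1 := pow_card_eq_one' (G := ↥H) (x := ⟨h ^ n, hhn⟩)
    have h2 := congrArg Subtype.val h1
    rw [Subgroup.coe_pow, Subgroup.coe_one] at h2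
    exact h2
  have hxodd : Odd (orderOf x) := Odd.of_dvd_nat hnodd (orderOf_dvd_of_pow_eq_one hxn)
  have hxcop : (orderOf x).Coprime 2 := Nat.coprime_two_right.mpr hxodd
  have hxH : x ∉ H := by
    intro hxH
    have h1 : (QuotientGroup.mk h : Y ⧸ H) ^ Nat.card H = 1 := by
      rw [← QuotientGroup.mk_pow, ← hx]; exact (QuotientGroup.eq_one_iff _).mpr hxH
    have h2 : n ∣ 2 ^ a := by rw [hn, ← ha]; exact orderOf_dvd_of_pow_eq_one h1
    have hcop : Nat.Coprime n (2 ^ a) := Nat.Coprime.pow_right a (Nat.coprime_two_right.mpr hnodd)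
    have h3 : n = 1 := Nat.Coprime.eq_one_of_dvd hcop h2
    rw [hn] at h3
    exact hq1 (orderOf_eq_one_iff.mp h3)
  have hx1 : x ≠ 1 := fun h => hxH (h ▸ H.one_mem)
  have hqx : (QuotientGroup.mk b : Y ⧸ H) * QuotientGroup.mk x * (QuotientGroup.mk b)⁻¹ =
      (QuotientGroup.mk x : Y ⧸ H)⁻¹ := by
    rw [hx, QuotientGroup.mk_pow, ← conj_pow, hqinv, inv_pow]
  have hbx : b * x * b⁻¹ * x ∈ H := by
    rw [← QuotientGroup.eq_one_iff, QuotientGroup.mk_mul, QuotientGroup.mk_mul,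
      QuotientGroup.mk_mul, QuotientGroup.mk_inv, hqx, inv_mul_cancel]
  -- `x` centralizes a subgroup of index at most `4`
  have hxV₁ : ∀ v ∈ V₀, x⁻¹ * v * x ∈ V₀ → x * v = v * x := by
    intro v hv hv'
    apply tv_commute_of_commute_sq hxodd
    have e : x ^ 2 = (x * b * x⁻¹) * b⁻¹ * (b * x * b⁻¹ * x) := by rw [pow_two]; group
    have c1 : Commute (x * b * x⁻¹) v := by
      have h1 := hV₀b _ hv'
      show x * b * x⁻¹ * v = v * (x * b * x⁻¹)
      calc x * b * x⁻¹ * v = x * (b * (x⁻¹ * v * x)) * x⁻¹ := by group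
        _ = x * ((x⁻¹ * v * x) * b) * x⁻¹ := by rw [h1]
        _ = v * (x * b * x⁻¹) := by group
    have c2 : Commute b⁻¹ v := (show Commute b v from hV₀b v hv).inv_left
    have c3 : Commute (b * x * b⁻¹ * x) v :=
      (Subgroup.mem_centralizer_iff.mp (hVc hbx) v (hV₀ hv)).symm
    rw [e]
    exact (c1.mul_left c2).mul_left c3
  -- the commutator map
  obtain ⟨φ, hφ⟩ : ∃ φ : ↥V →* Y, ∀ v : ↥V, φ v = x * (v : Y) * x⁻¹ * (v : Y)⁻¹ :=
    ⟨{ toFun := fun v => x * (v : Y) * x⁻¹ * (v : Y)⁻¹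
       map_one' := by simp
       map_mul' := by
        intro u v
        have h1 : x * (v : Y) * x⁻¹ * (v : Y)⁻¹ ∈ V :=
          V.mul_mem (hconjV x v v.2) (V.inv_mem v.2)
        have h2 := hVcomm _ (V.inv_mem u.2) _ h1
        show x * ((u : Y) * (v : Y)) * x⁻¹ * ((u : Y) * (v : Y))⁻¹ =
          x * (u : Y) * x⁻¹ * (u : Y)⁻¹ * (x * (v : Y) * x⁻¹ * (v : Y)⁻¹)
        calc x * ((u : Y) * (v : Y)) * x⁻¹ * ((u : Y) * (v : Y))⁻¹
            = x * (u : Y) * x⁻¹ * ((x * (v : Y) * x⁻¹ * (v : Y)⁻¹) * (u : Y)⁻¹) := by group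
          _ = x * (u : Y) * x⁻¹ * ((u : Y)⁻¹ * (x * (v : Y) * x⁻¹ * (v : Y)⁻¹)) := by rw [h2]
          _ = _ := by group }, fun v => rfl⟩
  obtain ⟨W, hW⟩ : ∃ W : Subgroup Y, W = φ.range := ⟨_, rfl⟩
  have hmemW : ∀ w : Y, w ∈ W ↔ ∃ v ∈ V, x * v * x⁻¹ * v⁻¹ = w := by
    intro w
    rw [hW, MonoidHom.mem_range]
    constructor
    · rintro ⟨v, rfl⟩; exact ⟨v, v.2, (hφ v).symm⟩
    · rintro ⟨v, hv, rfl⟩; exact ⟨⟨v, hv⟩, hφ _⟩
  have hWV : W ≤ V := by
    intro w hw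
    obtain ⟨v, hv, rfl⟩ := (hmemW w).mp hw
    exact V.mul_mem (hconjV x v hv) (V.inv_mem hv)
  have hxWc : ∀ w ∈ W, x * w * x⁻¹ ∈ W := by
    intro w hw
    obtain ⟨v, hv, rfl⟩ := (hmemW w).mp hw
    exact (hmemW _).mpr ⟨x * v * x⁻¹, hconjV x v hv, by group⟩
  have hxW : x ∈ Subgroup.normalizer (W : Set Y) := by
    apply mem_normalizer_of_cj_le
    intro y hy
    obtain ⟨w, hw, rfl⟩ := mem_cj'.mp hy
    exact hxWc w hw
  have hfix : ∀ w ∈ W, x * w * x⁻¹ = w → w = 1 := by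
    intro w hw hfx
    obtain ⟨v, hv, hvw⟩ := (hmemW w).mp hw
    refine tv_fix_comm_eq_one (v := v) hxodd ?_ hfx (hV2 w (hWV hw))
    rw [← hvw]; group
  have hWcard : Nat.card W ≤ 4 := by
    have h1 : Nat.card W = φ.ker.index := by rw [hW]; exact (Subgroup.index_ker φ).symm
    have h2 : (V₀ ⊓ cj x V₀).subgroupOf V ≤ φ.ker := by
      intro v hv
      rw [Subgroup.mem_subgroupOf, Subgroup.mem_inf, mem_cj] at hv
      rw [MonoidHom.mem_ker, hφ]
      have h3 := hxV₁ v hv.1 hv.2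
      rw [h3]; group
    have h3 : φ.ker.index ≤ ((V₀ ⊓ cj x V₀).subgroupOf V).index :=
      Nat.le_of_dvd (Nat.pos_of_ne_zero Subgroup.index_ne_zero_of_finite)
        (Subgroup.index_dvd_of_le h2)
    have h4 : (V₀ ⊓ cj x V₀).relIndex V ≤ V₀.relIndex V * (cj x V₀).relIndex V :=
      Subgroup.relIndex_inf_le
    have h5 : V₀.relIndex V ≤ 2 := tv_relIndex_le_two V₀ V hV₀ hidx
    have h6 : (cj x V₀).relIndex V ≤ 2 := by
      apply tv_relIndex_le_two
      · have h7 := cj_mono (g := x) hV₀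
        rwa [cj_eq_of_normal x V] at h7
      · rw [card_cj]; exact hidx
    have h7 : ((V₀ ⊓ cj x V₀).subgroupOf V).index = (V₀ ⊓ cj x V₀).relIndex V := rfl
    have h8 : V₀.relIndex V * (cj x V₀).relIndex V ≤ 2 * 2 := Nat.mul_le_mul h5 h6
    omega
  obtain ⟨a₀, ha₀W, ha₀1⟩ : ∃ a₀ ∈ W, a₀ ≠ 1 := by
    by_contra hcon
    push Not at hcon
    apply hxH
    apply hCV
    rw [Subgroup.mem_centralizer_iff]
    intro v hv
    have h1 := hcon _ ((hmemW _).mpr ⟨v, hv, rfl⟩)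
    have h2 : x * v * x⁻¹ = v := mul_inv_eq_one.mp h1
    calc v * x = (x * v * x⁻¹) * x := by rw [h2]
      _ = x * v := by group
  have hstep : ∀ w ∈ W, w ≠ 1 →
      Nat.card W = 4 ∧ x * (x * w * x⁻¹) * x⁻¹ = w * (x * w * x⁻¹) := by
    intro w hw hw1
    have hw2 := hV2 w (hWV hw)
    have hconj1 : ∀ z : Y, x * z * x⁻¹ = 1 → z = 1 := by
      intro z hz
      have e : z = x⁻¹ * (x * z * x⁻¹) * x := by group
      rw [e, hz]; group
    obtain ⟨w', hw'⟩ : ∃ w' : Y, w' = x * w * x⁻¹ := ⟨_, rfl⟩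
    have hw'W : w' ∈ W := hw' ▸ hxWc w hw
    have hw'1 : w' ≠ 1 := fun h => hw1 (hconj1 w (hw' ▸ h))
    have hw'w : w' ≠ w := fun h => hw1 (hfix w hw (hw'.symm.trans h))
    obtain ⟨A₁, hA₁⟩ : ∃ A₁ : Subgroup Y, A₁ = Subgroup.zpowers w := ⟨_, rfl⟩
    have hA₁W : A₁ ≤ W := by rw [hA₁]; exact Subgroup.zpowers_le.mpr hw
    have hA₁card : Nat.card A₁ = 2 := by
      rw [hA₁, Nat.card_zpowers]
      haveI : Fact (Nat.Prime 2) := ⟨Nat.prime_two⟩
      exact orderOf_eq_prime (by rw [pow_two]; exact hw2) hw1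
    have hmemA₁ : ∀ z ∈ A₁, z = 1 ∨ z = w := fun z hz => tv_mem_zpowers_of_sq hw2 (hA₁ ▸ hz)
    have hw'A : w' ∉ A₁ := fun h => (hmemA₁ w' h).elim hw'1 hw'w
    have hcard4 : Nat.card W = 4 := by
      have h1 : Nat.card A₁ ∣ Nat.card W := Subgroup.card_dvd_of_le hA₁W
      have h2 : Nat.card W ≠ 2 := by
        intro h2
        have h3 := Subgroup.eq_of_le_of_card_ge hA₁W (by omega)
        exact hw'A (h3 ▸ hw'W)
      have h3 : 0 < Nat.card W := Nat.card_pos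
      rw [hA₁card] at h1
      obtain ⟨c, hc⟩ := h1
      omega
    refine ⟨hcard4, ?_⟩
    obtain ⟨w'', hw''⟩ : ∃ w'' : Y, w'' = x * w' * x⁻¹ := ⟨_, rfl⟩
    have hw''W : w'' ∈ W := hw'' ▸ hxWc w' hw'W
    have hw''1 : w'' ≠ 1 := fun h => hw'1 (hconj1 w' (hw'' ▸ h))
    have hw''w : w'' ≠ w := by
      intro h
      apply hw1
      apply hfix w hw
      have hc : x ^ 2 * w = w * x ^ 2 := by
        have h1 : x ^ 2 * w * (x ^ 2)⁻¹ = w := by
          have e : x ^ 2 * w * (x ^ 2)⁻¹ = x * (x * w * x⁻¹) * x⁻¹ := by rw [pow_two]; group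
          rw [e, ← hw', ← hw'', h]
        calc x ^ 2 * w = (x ^ 2 * w * (x ^ 2)⁻¹) * x ^ 2 := by group
          _ = w * x ^ 2 := by rw [h1]
      have h2 := tv_commute_of_commute_sq hxodd hc
      rw [h2, mul_inv_cancel_right]
    have hw''A : w'' ∉ A₁ := fun h => (hmemA₁ w'' h).elim hw''1 hw''w
    have hidx2 : (A₁.subgroupOf W).index = 2 := by
      have h1 := tv_card_mul_relIndex A₁ W hA₁W
      rw [hA₁card, hcard4] at h1
      have h2 : (A₁.subgroupOf W).index = A₁.relIndex W := rfl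
      omega
    have h5 := (Subgroup.mul_mem_iff_of_index_two hidx2 (a := (⟨w'', hw''W⟩ : ↥W))
      (b := ⟨w', hw'W⟩)).mpr
      ⟨fun h => absurd (Subgroup.mem_subgroupOf.mp h) hw''A,
        fun h => absurd (Subgroup.mem_subgroupOf.mp h) hw'A⟩
    have h6 : w'' * w' ∈ A₁ := Subgroup.mem_subgroupOf.mp h5
    have hw'2 := hV2 w' (hWV hw'W)
    rcases hmemA₁ _ h6 with h7 | h7
    · exfalso
      have h8 : w'' = w' := by
        calc w'' = w'' * (w' * w') := by rw [hw'2, mul_one]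
          _ = (w'' * w') * w' := by rw [mul_assoc]
          _ = w' := by rw [h7, one_mul]
      exact hw'1 (hfix w' hw'W (hw''.symm.trans h8))
    · rw [← hw', ← hw'']
      calc w'' = w'' * (w' * w') := by rw [hw'2, mul_one]
        _ = (w'' * w') * w' := by rw [mul_assoc]
        _ = w * w' := by rw [h7]
  have hW4 : Nat.card W = 4 := (hstep a₀ ha₀W ha₀1).1
  have hstep' : ∀ w ∈ W, x * (x * w * x⁻¹) * x⁻¹ = w * (x * w * x⁻¹) := by
    intro w hw
    by_cases hw1 : w = 1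
    · rw [hw1]; group
    · exact (hstep w hw hw1).2
  have hx3V : ∀ v ∈ V, x ^ 3 * v = v * x ^ 3 := by
    intro v hv
    obtain ⟨w, hw⟩ : ∃ w : Y, w = x * v * x⁻¹ * v⁻¹ := ⟨_, rfl⟩
    have hwW : w ∈ W := (hmemW w).mpr ⟨v, hv, hw.symm⟩
    have h1 := hstep' w hwW
    have hwV := hWV hwW
    have hw'V : x * w * x⁻¹ ∈ V := hconjV x w hwV
    have hw2 := hV2 w hwV
    have hw'2 := hV2 _ hw'V
    have hp3 : x ^ 3 = x * x * x := by rw [pow_succ, pow_two]
    rw [hp3]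
    have e : x * x * x * v * (x * x * x)⁻¹ =
        (x * (x * w * x⁻¹) * x⁻¹) * (x * w * x⁻¹) * w * v := by
      rw [hw]; group
    have h2 : x * x * x * v * (x * x * x)⁻¹ = v := by
      rw [e, h1]
      calc w * (x * w * x⁻¹) * (x * w * x⁻¹) * w * v
          = w * ((x * w * x⁻¹) * (x * w * x⁻¹)) * w * v := by group
        _ = v := by rw [hw'2, mul_one, hw2, one_mul]
    calc x * x * x * v = (x * x * x * v * (x * x * x)⁻¹) * (x * x * x) := by group
      _ = v * (x * x * x) := by rw [h2]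
  have hx3 : x ^ 3 = 1 := by
    have h1 : x ^ 3 ∈ H := hCV (by
      rw [Subgroup.mem_centralizer_iff]; intro v hv; exact (hx3V v hv).symm)
    apply eq_one_of_isPGroup_of_coprime hH2 h1
    exact Nat.Coprime.coprime_dvd_left (orderOf_pow_dvd 3) hxcop
  haveI : Fact (Nat.Prime 3) := ⟨Nat.prime_three⟩
  have hxo : orderOf x = 3 := orderOf_eq_prime hx3 hx1
  -- the element `t`
  obtain ⟨L, hL⟩ : ∃ L : Subgroup Y, L = H ⊔ Subgroup.zpowers x := ⟨_, rfl⟩
  have hHL : H ≤ L := hL ▸ le_sup_left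
  have hxL : Subgroup.zpowers x ≤ L := hL ▸ le_sup_right
  have h3p : IsPGroup 3 (Subgroup.zpowers x) :=
    IsPGroup.of_card (n := 1) (by rw [Nat.card_zpowers, hxo, pow_one])
  have hidx3 : ¬ 3 ∣ (Subgroup.zpowers x).relIndex L := by
    intro hdvd
    have h1 := tv_card_mul_relIndex (Subgroup.zpowers x) L hxL
    have h2 := tv_card_mul_relIndex H L hHL
    have h3 : H.relIndex L = H.relIndex (Subgroup.zpowers x) := by
      rw [hL]; exact Subgroup.relIndex_sup_left _ _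
    have h4 : H.relIndex (Subgroup.zpowers x) ∣ 3 := by
      have h5 := Subgroup.relIndex_dvd_card H (Subgroup.zpowers x)
      rwa [Nat.card_zpowers, hxo] at h5
    rw [Nat.card_zpowers, hxo] at h1
    rw [h3, ha] at h2
    obtain ⟨c, hc⟩ := hdvd
    have h6 : (3 : ℕ) ∣ 2 ^ a := by
      rcases (Nat.dvd_prime Nat.prime_three).mp h4 with h7 | h7
      · rw [h7] at h2
        exact ⟨3 * c, by rw [hc] at h1; omega⟩
      · rw [h7] at h2
        exact ⟨c, by rw [hc] at h1; omega⟩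
    have h7 := Nat.Prime.dvd_of_dvd_pow Nat.prime_three h6
    omega
  have hQL : cj b (Subgroup.zpowers x) ≤ L := by
    intro y hy
    obtain ⟨z, hz, rfl⟩ := mem_cj'.mp hy
    obtain ⟨k, rfl⟩ := Subgroup.mem_zpowers_iff.mp hz
    rw [← conj_zpow]
    apply L.zpow_mem
    have e : b * x * b⁻¹ = (b * x * b⁻¹ * x) * x⁻¹ := by group
    rw [e]
    exact L.mul_mem (hHL hbx) (L.inv_mem (hxL (Subgroup.mem_zpowers x)))
  obtain ⟨m, hmL, hm⟩ := exists_conj_le_of_relIndex L (Subgroup.zpowers x)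
    (cj b (Subgroup.zpowers x)) h3p hidx3 hQL (isPGroup_cj h3p)
  obtain ⟨t, ht⟩ : ∃ t : Y, t = m * b := ⟨_, rfl⟩
  obtain ⟨h', hh', xj, hxj, hmeq⟩ := mem_sup_of_le_normalizer
    (A := H) (B := Subgroup.zpowers x) (by rw [Subgroup.normalizer_eq_top]; exact le_top)
    (hL ▸ hmL)
  obtain ⟨j, rfl⟩ := Subgroup.mem_zpowers_iff.mp hxj
  have hqm : (QuotientGroup.mk m : Y ⧸ H) = (QuotientGroup.mk x) ^ j := by
    rw [hmeq, QuotientGroup.mk_mul, (QuotientGroup.eq_one_iff h').mpr hh', one_mul,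
      QuotientGroup.mk_zpow]
  have hqt : (QuotientGroup.mk t : Y ⧸ H) = (QuotientGroup.mk x) ^ j * QuotientGroup.mk b := by
    rw [ht, QuotientGroup.mk_mul, hqm]
  have htx : t * x * t⁻¹ ∈ Subgroup.zpowers x := by
    have e : t * x * t⁻¹ = m * (b * x * b⁻¹) * m⁻¹ := by rw [ht]; group
    rw [e]
    exact hm _ (conj_mem_cj (Subgroup.mem_zpowers x))
  have hqtx : (QuotientGroup.mk (t * x * t⁻¹) : Y ⧸ H) = (QuotientGroup.mk x)⁻¹ := by
    rw [QuotientGroup.mk_mul, QuotientGroup.mk_mul, QuotientGroup.mk_inv, hqt]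
    calc (QuotientGroup.mk x : Y ⧸ H) ^ j * QuotientGroup.mk b * QuotientGroup.mk x *
          ((QuotientGroup.mk x : Y ⧸ H) ^ j * QuotientGroup.mk b)⁻¹
        = (QuotientGroup.mk x : Y ⧸ H) ^ j * (QuotientGroup.mk b * QuotientGroup.mk x *
          (QuotientGroup.mk b)⁻¹) * ((QuotientGroup.mk x : Y ⧸ H) ^ j)⁻¹ := by group
      _ = (QuotientGroup.mk x : Y ⧸ H)⁻¹ := by rw [hqx]; group
  have hinv : t * x * t⁻¹ = x⁻¹ := by
    obtain ⟨k, hk⟩ := Subgroup.mem_zpowers_iff.mp htx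
    rcases tv_zpow_of_cube hx3 k with h1 | h1 | h1
    · exfalso
      rw [h1] at hk
      rw [← hk, QuotientGroup.mk_one] at hqtx
      apply hxH
      rw [← QuotientGroup.eq_one_iff]
      exact inv_eq_one.mp hqtx.symm
    · exfalso
      rw [h1] at hk
      rw [← hk] at hqtx
      have h2 : (QuotientGroup.mk (x ^ 2) : Y ⧸ H) = 1 := by
        rw [QuotientGroup.mk_pow, pow_two]
        nth_rewrite 1 [hqtx]
        exact inv_mul_cancel _
      have h3 : x ^ 2 ∈ H := (QuotientGroup.eq_one_iff _).mp h2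
      apply hxH
      have h4 : x = (x ^ 2) ^ 2 := by
        rw [← pow_mul, show 2 * 2 = 3 + 1 by norm_num, pow_succ, hx3, one_mul]
      rw [h4]; exact H.pow_mem h3 2
    · rw [← hk, h1]
  have htW : t ∈ Subgroup.normalizer (W : Set Y) := by
    apply mem_normalizer_of_cj_le
    intro y hy
    obtain ⟨w, hw, rfl⟩ := mem_cj'.mp hy
    obtain ⟨v, hv, rfl⟩ := (hmemW w).mp hw
    have hv' : t * v * t⁻¹ ∈ V := hconjV t v hv
    have hu : x⁻¹ * (t * v * t⁻¹) * x ∈ V := by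
      have := hconjV x⁻¹ _ hv'
      rwa [inv_inv] at this
    have h1 : x * (x⁻¹ * (t * v * t⁻¹) * x) * x⁻¹ * (x⁻¹ * (t * v * t⁻¹) * x)⁻¹ ∈ W :=
      (hmemW _).mpr ⟨_, hu, rfl⟩
    have h2 := W.inv_mem h1
    have e : t * (x * v * x⁻¹ * v⁻¹) * t⁻¹ =
        (x * (x⁻¹ * (t * v * t⁻¹) * x) * x⁻¹ * (x⁻¹ * (t * v * t⁻¹) * x)⁻¹)⁻¹ := by
      have e1 : t * (x * v * x⁻¹ * v⁻¹) * t⁻¹ =
          (t * x * t⁻¹) * (t * v * t⁻¹) * (t * x * t⁻¹)⁻¹ * (t * v * t⁻¹)⁻¹ := by group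
      rw [e1, hinv]; group
    rw [e]; exact h2
  have ht2 : t ^ 2 ∈ Subgroup.centralizer (W : Set Y) := by
    have h1 : t ^ 2 ∈ H := by
      rw [← QuotientGroup.eq_one_iff, QuotientGroup.mk_pow, hqt]
      have hB : (QuotientGroup.mk b : Y ⧸ H) * QuotientGroup.mk b = 1 := by
        rw [← pow_two]; exact hbq2
      have hconj : (QuotientGroup.mk b : Y ⧸ H) * (QuotientGroup.mk x) ^ j *
          (QuotientGroup.mk b)⁻¹ = ((QuotientGroup.mk x : Y ⧸ H) ^ j)⁻¹ := by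
        rw [← conj_zpow, hqx, inv_zpow]
      calc ((QuotientGroup.mk x : Y ⧸ H) ^ j * QuotientGroup.mk b) ^ 2
          = (QuotientGroup.mk x : Y ⧸ H) ^ j * (QuotientGroup.mk b * (QuotientGroup.mk x) ^ j *
            (QuotientGroup.mk b)⁻¹) * (QuotientGroup.mk b * QuotientGroup.mk b) := by
            rw [pow_two]; group
        _ = 1 := by rw [hconj, hB, mul_inv_cancel, one_mul]
    exact Subgroup.centralizer_le hWV (hVc h1)
  exact s4_involved_of_klein W hW4 (fun w hw => hV2 w (hWV hw)) x t hx3 hxW htW hfix hinv ht2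

end Transv

end Cfsg.Agent.Helper13
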