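import Mathlib
import Cfsg.Prelude.Def_LocalEven
import Cfsg.Prelude.Def_Transfer
import Cfsg.Agent.Helper13.S4F2
import Cfsg.Agent.Helper13.AlpP
import Cfsg.Agent.S0598
import Cfsg.Agent.S1324

set_option autoImplicit false

namespace Cfsg.Agent.Helper13

open Cfsg Cfsg.Agent.Helper17
open scoped commutatorElement

section QOff

variable {Y : Type*} [Group Y]

theorem qo_comm_of_sq_one {a c : Y} (ha : a * a = 1) (hc : c * c = 1)
    (hac : (a * c) * (a * c) = 1) : a * c = c * a := by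
  have ha' : a⁻¹ = a := inv_eq_of_mul_eq_one_left ha
  have hc' : c⁻¹ = c := inv_eq_of_mul_eq_one_left hc
  calc a * c = (a * c)⁻¹ := (inv_eq_of_mul_eq_one_left hac).symm
    _ = c⁻¹ * a⁻¹ := mul_inv_rev a c
    _ = c * a := by rw [ha', hc']

theorem qo_sq_comm {b v c : Y} (h1 : b * v = c * v * b) (hbc : c * b = b * c)
    (hc2 : c * c = 1) : b ^ 2 * v = v * b ^ 2 := by
  calc b ^ 2 * v = b * (b * v) := by rw [pow_two, mul_assoc]
    _ = b * (c * v * b) := by rw [h1]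
    _ = (b * c) * v * b := by group
    _ = (c * b) * v * b := by rw [hbc]
    _ = c * (b * v) * b := by group
    _ = c * (c * v * b) * b := by rw [h1]
    _ = (c * c) * v * (b * b) := by group
    _ = v * b ^ 2 := by rw [hc2, one_mul, pow_two]

/-- the stabilizer of the chain `1 ≤ V₀ ≤ V`. -/
def qoStab (V₀ V : Subgroup Y) : Subgroup Y where
  carrier := {g | (∀ v ∈ V₀, g * v = v * g) ∧ ∀ v ∈ V, g * v * g⁻¹ * v⁻¹ ∈ V₀}
  mul_mem' := by
    rintro g g' ⟨h1, h2⟩ ⟨h1', h2'⟩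
    refine ⟨fun v hv => by rw [mul_assoc, h1' v hv, ← mul_assoc, h1 v hv, mul_assoc],
      fun v hv => ?_⟩
    have h3 := h2' v hv
    have h4 := h2 v hv
    have h5 := h1 _ h3
    have e : g * g' * v * (g * g')⁻¹ * v⁻¹ =
        (g * (g' * v * g'⁻¹ * v⁻¹) * g⁻¹) * (g * v * g⁻¹ * v⁻¹) := by group
    rw [e, h5, mul_inv_cancel_right]
    exact V₀.mul_mem h3 h4
  one_mem' := ⟨fun v _ => by rw [one_mul, mul_one], fun v _ => by
    rw [one_mul, inv_one, mul_one, mul_inv_cancel]; exact V₀.one_mem⟩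
  inv_mem' := by
    rintro g ⟨h1, h2⟩
    refine ⟨fun v hv => ?_, fun v hv => ?_⟩
    · have h3 := h1 v hv
      calc g⁻¹ * v = g⁻¹ * (v * g) * g⁻¹ := by group
        _ = g⁻¹ * (g * v) * g⁻¹ := by rw [h3]
        _ = v * g⁻¹ := by group
    · have h3 := h2 v hv
      have h4 : Commute g (g * v * g⁻¹ * v⁻¹) := h1 _ h3
      have h5 := h4.inv_right.eq
      have e : g⁻¹ * v * g⁻¹⁻¹ * v⁻¹ = g⁻¹ * ((g * v * g⁻¹ * v⁻¹)⁻¹ * g) := by group
      rw [e, ← h5, inv_mul_cancel_left]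
      exact V₀.inv_mem h3

theorem mem_qoStab {V₀ V : Subgroup Y} {g : Y} : g ∈ qoStab V₀ V ↔
    (∀ v ∈ V₀, g * v = v * g) ∧ ∀ v ∈ V, g * v * g⁻¹ * v⁻¹ ∈ V₀ := Iff.rfl

theorem qo_stab_sq (V₀ V : Subgroup Y) (hV₀2 : ∀ v ∈ V₀, v * v = 1) {g : Y}
    (hg : g ∈ qoStab V₀ V) : g ^ 2 ∈ Subgroup.centralizer (V : Set Y) := by
  obtain ⟨h1, h2⟩ := mem_qoStab.mp hg
  rw [Subgroup.mem_centralizer_iff]
  intro v hv
  have h3 := h2 v hv
  have h4 : g * v = (g * v * g⁻¹ * v⁻¹) * v * g := by group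
  exact (qo_sq_comm h4 (h1 _ h3).symm (hV₀2 _ h3)).symm

theorem qo_stab_conj (V₀ V : Subgroup Y) [hVn : V.Normal] {k g : Y}
    (hk : k ∈ Subgroup.normalizer (V₀ : Set Y)) (hg : g ∈ qoStab V₀ V) :
    k * g * k⁻¹ ∈ qoStab V₀ V := by
  obtain ⟨h1, h2⟩ := mem_qoStab.mp hg
  have hk' : ∀ v ∈ V₀, k⁻¹ * v * k ∈ V₀ := by
    intro v hv
    have h3 := (Subgroup.mem_normalizer_iff.mp (Subgroup.inv_mem _ hk) v).mp hv
    rwa [inv_inv] at h3
  refine mem_qoStab.mpr ⟨fun v hv => ?_, fun v hv => ?_⟩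
  · have h3 := h1 _ (hk' v hv)
    calc k * g * k⁻¹ * v = k * (g * (k⁻¹ * v * k)) * k⁻¹ := by group
      _ = k * ((k⁻¹ * v * k) * g) * k⁻¹ := by rw [h3]
      _ = v * (k * g * k⁻¹) := by group
  · have hv' : k⁻¹ * v * k ∈ V := by
      have h3 := hVn.conj_mem v hv k⁻¹
      rwa [inv_inv] at h3
    have h3 := h2 _ hv'
    have h4 := (Subgroup.mem_normalizer_iff.mp hk _).mp h3
    have e : k * g * k⁻¹ * v * (k * g * k⁻¹)⁻¹ * v⁻¹ =
        k * (g * (k⁻¹ * v * k) * g⁻¹ * (k⁻¹ * v * k)⁻¹) * k⁻¹ := by group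
    rw [e]; exact h4

theorem qo_sq_mem (V B : Subgroup Y) [hVn : V.Normal] (hV2 : ∀ v ∈ V, v * v = 1)
    (hquad : B ≤ Subgroup.centralizer ((⁅V, B⁆ : Subgroup Y) : Set Y)) {b : Y} (hb : b ∈ B) :
    b ^ 2 ∈ Subgroup.centralizer (V : Set Y) := by
  rw [Subgroup.mem_centralizer_iff]
  intro v hv
  obtain ⟨c, hc⟩ : ∃ c : Y, c = b * v * b⁻¹ * v⁻¹ := ⟨_, rfl⟩
  have hcV : c ∈ V := by rw [hc]; exact V.mul_mem (hVn.conj_mem v hv b) (V.inv_mem hv)
  have hcc : c ∈ ⁅V, B⁆ := by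
    have h1 : ⁅v, b⁆ ∈ ⁅V, B⁆ := Subgroup.commutator_mem_commutator hv hb
    have h2 := Subgroup.inv_mem _ h1
    have e : c = ⁅v, b⁆⁻¹ := by rw [hc, commutatorElement_def]; group
    rw [e]; exact h2
  have hbc : c * b = b * c := Subgroup.mem_centralizer_iff.mp (hquad hb) c hcc
  have h1 : b * v = c * v * b := by rw [hc]; group
  exact (qo_sq_comm h1 hbc (hV2 c hcV)).symm

variable [Finite Y]

theorem qo_nil {p : ℕ} [Fact p.Prime] (T X B : Subgroup Y) (hT : IsPGroup p T) (hXT : X ≤ T)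
    (hBT : B ≤ T) (h : X ≤ ⁅X, B⁆) : X = ⊥ := by
  have hnil : Group.IsNilpotent ↥T := hT.isNilpotent
  obtain ⟨n, hn⟩ := (Subgroup.isNilpotent_iff_lowerCentralSeries T).mp hnil
  have key : ∀ k : ℕ, X ≤ T.lowerCentralSeries k := by
    intro k
    induction k with
    | zero => exact hXT
    | succ k ih =>
      rw [Subgroup.lowerCentralSeries_succ]
      exact h.trans (Subgroup.commutator_mono ih hBT)
  exact le_bot_iff.mp (hn ▸ key n)

/-- Thompson replacement: an offender with abelian image gives a quadratic offender. -/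
theorem qo_exists_quadratic (H V T : Subgroup Y) [hHn : H.Normal] [hVn : V.Normal]
    (hT2 : IsPGroup 2 T) (hHT : H ≤ T) (hVH : V ≤ H)
    (hVc : H ≤ Subgroup.centralizer (V : Set Y)) (hV : Cfsg.IsElementaryAbelian 2 V)
    (hCV : Subgroup.centralizer (V : Set Y) ≤ H)
    (B₁ : Subgroup Y) (hHB₁ : H ≤ B₁) (hB₁T : B₁ ≤ T) (hB₁H : B₁ ≠ H) (hab : ⁅B₁, B₁⁆ ≤ H)
    (hoff : Nat.card H * Nat.card V ≤
      Nat.card B₁ * Nat.card ↥(V ⊓ Subgroup.centralizer (B₁ : Set Y))) :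
    ∃ B : Subgroup Y, H ≤ B ∧ B ≤ T ∧ B ≠ H ∧
      B ≤ Subgroup.centralizer ((⁅V, B⁆ : Subgroup Y) : Set Y) ∧
      Nat.card H * Nat.card V ≤ Nat.card B * Nat.card ↥(V ⊓ Subgroup.centralizer (B : Set Y)) := by
  classical
  haveI : Fact (Nat.Prime 2) := ⟨Nat.prime_two⟩
  obtain ⟨f, hf⟩ : ∃ f : Subgroup Y → ℕ, f = fun D : Subgroup Y =>
      Nat.card D * Nat.card ↥(V ⊓ Subgroup.centralizer (D : Set Y)) := ⟨_, rfl⟩
  have hfdef : ∀ D : Subgroup Y, f D =
      Nat.card D * Nat.card ↥(V ⊓ Subgroup.centralizer (D : Set Y)) := by intro D; rw [hf]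
  obtain ⟨𝒞, h𝒞⟩ : ∃ 𝒞 : Set (Subgroup Y), 𝒞 = {D | H ≤ D ∧ D ≤ T ∧ D ≠ H ∧ ⁅D, D⁆ ≤ H} :=
    ⟨_, rfl⟩
  have hB₁𝒞 : B₁ ∈ 𝒞 := by rw [h𝒞]; exact ⟨hHB₁, hB₁T, hB₁H, hab⟩
  obtain ⟨B₀, hB₀𝒞, hB₀max⟩ := Set.exists_max_image 𝒞 f (Set.toFinite _) ⟨B₁, hB₁𝒞⟩
  have hB₀𝒞' := hB₀𝒞
  rw [h𝒞] at hB₀𝒞'
  obtain ⟨hHB₀, hB₀T, hB₀H, hab₀⟩ := hB₀𝒞'
  have hVH' : V ⊓ Subgroup.centralizer (H : Set Y) = V :=
    inf_eq_left.mpr (Subgroup.le_centralizer_iff.mp hVc)
  have hfH : f H = Nat.card H * Nat.card V := by rw [hfdef, hVH']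
  have hf1 : f H ≤ f B₁ := by rw [hfH, hfdef]; exact hoff
  have hf0 : f B₁ ≤ f B₀ := hB₀max B₁ hB₁𝒞
  obtain ⟨B, hBB₀, hB⟩ := Cfsg.Agent.S0598.result V B₀ hV
    (by rw [Subgroup.normalizer_eq_top]; exact le_top) (hab₀.trans hVc) V le_rfl
  have hcomV : ⁅V, B₀⁆ ≤ V := Subgroup.commutator_le_left V B₀
  rcases hB with hlt | ⟨hBeq, hcv, hprod⟩
  · exfalso
    have hcvD : V ⊓ Subgroup.centralizer (B : Set Y) ≤
        V ⊓ Subgroup.centralizer ((H ⊔ B : Subgroup Y) : Set Y) := by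
      refine le_inf inf_le_left ?_
      rw [Subgroup.le_centralizer_iff]
      refine sup_le ?_ ?_
      · exact hVc.trans (Subgroup.centralizer_le (SetLike.coe_subset_coe.mpr inf_le_left))
      · rw [Subgroup.le_centralizer_iff]; exact inf_le_right
    have h1 : Nat.card B * Nat.card ↥(V ⊓ Subgroup.centralizer (B : Set Y)) ≤ f (H ⊔ B) := by
      rw [hfdef]
      exact Nat.mul_le_mul (Subgroup.card_le_of_le le_sup_right) (Subgroup.card_le_of_le hcvD)
    have h2 : f B₀ < f (H ⊔ B) := by rw [hfdef B₀]; exact lt_of_lt_of_le hlt h1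
    have hD : H ⊔ B ∈ 𝒞 := by
      rw [h𝒞]
      refine ⟨le_sup_left, sup_le hHT (hBB₀.trans hB₀T), ?_,
        (Subgroup.commutator_mono (sup_le hHB₀ hBB₀) (sup_le hHB₀ hBB₀)).trans hab₀⟩
      intro h3
      rw [h3] at h2
      omega
    have h3 := hB₀max _ hD
    omega
  · have hHB : H ≤ B := by
      rw [hBeq]
      exact le_inf hHB₀ (hVc.trans (Subgroup.centralizer_le (SetLike.coe_subset_coe.mpr hcomV)))
    have hquad : B ≤ Subgroup.centralizer ((⁅V, B⁆ : Subgroup Y) : Set Y) := by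
      have h1 : B ≤ Subgroup.centralizer ((⁅V, B₀⁆ : Subgroup Y) : Set Y) := by
        rw [hBeq]; exact inf_le_right
      exact h1.trans (Subgroup.centralizer_le
        (SetLike.coe_subset_coe.mpr (Subgroup.commutator_mono le_rfl hBB₀)))
    refine ⟨B, hHB, hBB₀.trans hB₀T, ?_, hquad, ?_⟩
    · intro hBH
      apply hB₀H
      apply le_antisymm _ hHB₀
      have hVeq : V = ⁅V, B₀⁆ ⊔ (V ⊓ Subgroup.centralizer (B₀ : Set Y)) := by
        rw [← hcv, hBH]; exact hVH'.symm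
      have hX : ⁅V, B₀⁆ ≤ ⁅⁅V, B₀⁆, B₀⁆ := by
        rw [Subgroup.commutator_le]
        intro v hv b hb
        rw [hVeq] at hv
        obtain ⟨x, hx, c, hc, rfl⟩ := mem_sup_of_le_normalizer (A := ⁅V, B₀⁆)
          (B := V ⊓ Subgroup.centralizer (B₀ : Set Y))
          (inf_le_left.trans (le_normalizer_commutator_left V B₀)) hv
        have hcb : c * b = b * c :=
          (Subgroup.mem_centralizer_iff.mp (Subgroup.mem_inf.mp hc).2 b hb).symm
        have e : ⁅x * c, b⁆ = ⁅x, b⁆ := by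
          rw [commutatorElement_def, commutatorElement_def]
          calc x * c * b * (x * c)⁻¹ * b⁻¹ = x * (c * b) * c⁻¹ * x⁻¹ * b⁻¹ := by group
            _ = x * (b * c) * c⁻¹ * x⁻¹ * b⁻¹ := by rw [hcb]
            _ = x * b * x⁻¹ * b⁻¹ := by group
        rw [e]
        exact Subgroup.commutator_mem_commutator hx hb
      have hXbot : ⁅V, B₀⁆ = ⊥ :=
        qo_nil (p := 2) T (⁅V, B₀⁆) B₀ hT2 ((hcomV.trans hVH).trans hHT) hB₀T hX
      have h3 : B₀ ≤ Subgroup.centralizer (V : Set Y) := by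
        rw [Subgroup.le_centralizer_iff]
        exact (Subgroup.commutator_eq_bot_iff_le_centralizer).mp hXbot
      exact h3.trans hCV
    · have h1 := hfdef B₀
      rw [hfH] at hf1
      rw [← hprod, ← h1]
      omega

/-- a quadratic offender of least order is a transvection group. -/
theorem qo_min_transvection (H V : Subgroup Y) (T : Sylow 2 Y) [hHn : H.Normal] [hVn : V.Normal]
    (hHT : H ≤ (T : Subgroup Y)) (hVc : H ≤ Subgroup.centralizer (V : Set Y))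
    (hV2 : ∀ v ∈ V, v * v = 1) (hCV : Subgroup.centralizer (V : Set Y) ≤ H)
    (hO2 : ∀ N : Subgroup Y, N.Normal → IsPGroup 2 N → N ≤ H)
    (Qb : Subgroup (Y ⧸ H)) (hQn : Qb.Normal) (hQc : (Nat.card Qb).Coprime 2)
    (hQi : ∃ k : ℕ, Qb.index = 2 ^ k)
    (B : Subgroup Y) (hHB : H ≤ B) (hBT : B ≤ (T : Subgroup Y)) (hBH : B ≠ H)
    (hquad : B ≤ Subgroup.centralizer ((⁅V, B⁆ : Subgroup Y) : Set Y))
    (hoff : Nat.card H * Nat.card V ≤
      Nat.card B * Nat.card ↥(V ⊓ Subgroup.centralizer (B : Set Y)))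
    (hmin : ∀ D : Subgroup Y, H ≤ D → D ≤ (T : Subgroup Y) → D ≠ H →
      D ≤ Subgroup.centralizer ((⁅V, D⁆ : Subgroup Y) : Set Y) →
      Nat.card H * Nat.card V ≤ Nat.card D * Nat.card ↥(V ⊓ Subgroup.centralizer (D : Set Y)) →
      Nat.card B ≤ Nat.card D) :
    Nat.card B ≤ 2 * Nat.card H := by
  classical
  haveI : Fact (Nat.Prime 2) := ⟨Nat.prime_two⟩
  haveI := hQn
  by_contra hcon
  push Not at hcon
  obtain ⟨V₀, hV₀⟩ : ∃ V₀ : Subgroup Y, V₀ = V ⊓ Subgroup.centralizer (B : Set Y) := ⟨_, rfl⟩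
  obtain ⟨Bq, hBq⟩ : ∃ Bq : Subgroup (Y ⧸ H), Bq = B.map (QuotientGroup.mk' H) := ⟨_, rfl⟩
  have hV₀V : V₀ ≤ V := hV₀ ▸ inf_le_left
  have hsq : ∀ b ∈ B, b ^ 2 ∈ H := fun b hb => hCV (qo_sq_mem V B hV2 hquad hb)
  have hBq2 : ∀ a ∈ Bq, a ^ 2 = 1 := by
    intro a ha
    rw [hBq] at ha
    obtain ⟨b, hb, rfl⟩ := ha
    have h1 : (QuotientGroup.mk (b ^ 2) : Y ⧸ H) = 1 := (QuotientGroup.eq_one_iff _).mpr (hsq b hb)
    rw [QuotientGroup.mk_pow] at h1
    exact h1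
  have hBqEA : Cfsg.IsElementaryAbelian 2 Bq := by
    refine ⟨?_, hBq2⟩
    refine .of_setLike_mul_comm ?_
    intro a ha c hc
    have h1 := hBq2 a ha
    have h2 := hBq2 c hc
    have h3 := hBq2 (a * c) (Bq.mul_mem ha hc)
    rw [pow_two] at h1 h2 h3
    exact qo_comm_of_sq_one h1 h2 h3
  have hBqcard : Nat.card Bq = H.relIndex B := by
    have h1 : (⊥ : Subgroup (Y ⧸ H)).comap (QuotientGroup.mk' H) = H := by
      rw [MonoidHom.comap_bot, QuotientGroup.ker_mk']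
    have h2 : ((⊥ : Subgroup (Y ⧸ H)).comap (QuotientGroup.mk' H)).relIndex B = Nat.card Bq := by
      rw [Subgroup.relIndex_comap, Subgroup.relIndex_bot_left, hBq]
    rw [← h2, h1]
  have hcardB : Nat.card H * H.relIndex B = Nat.card B := tv_card_mul_relIndex H B hHB
  have h4 : 2 ^ 2 ≤ Nat.card Bq := by
    rw [hBqcard]
    have h5 : 2 < H.relIndex B := by
      by_contra h6
      push Not at h6
      have h7 : Nat.card H * H.relIndex B ≤ Nat.card H * 2 := Nat.mul_le_mul_left _ h6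
      omega
    obtain ⟨j, hj⟩ := IsPGroup.iff_card.mp (T.2.to_le hBT)
    have h6 : H.relIndex B ∣ 2 ^ j := by rw [← hj]; exact Subgroup.relIndex_dvd_card H B
    obtain ⟨m, -, hm'⟩ := (Nat.dvd_prime_pow Nat.prime_two).mp h6
    rw [hm'] at h5 ⊢
    have h7 : 2 ≤ m := by
      by_contra h7
      push Not at h7
      interval_cases m <;> simp at h5
    exact Nat.pow_le_pow_right (by norm_num) h7
  have hgen := Cfsg.Agent.S1324.result 2 Bq Qb hBqEA h4
    (fun h => by have := Nat.Coprime.eq_one_of_dvd hQc.symm h; omega)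
    (by rw [Subgroup.normalizer_eq_top]; exact le_top)
  obtain ⟨N₀, hN₀⟩ : ∃ N₀ : Subgroup Y, N₀ = Subgroup.normalizer (V₀ : Set Y) := ⟨_, rfl⟩
  have hHN₀ : H ≤ N₀ := by
    rw [hN₀]
    exact (hVc.trans (Subgroup.centralizer_le (SetLike.coe_subset_coe.mpr hV₀V))).trans
      (Subgroup.centralizer_le_normalizer _)
  have hQN : Qb ≤ N₀.map (QuotientGroup.mk' H) := by
    rw [hgen]
    apply iSup_le
    rintro ⟨B', hB'le, hB'idx⟩
    intro q hq
    obtain ⟨hqQ, hqC⟩ := Subgroup.mem_inf.mp hq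
    obtain ⟨y, rfl⟩ := QuotientGroup.mk_surjective q
    refine ⟨y, ?_, rfl⟩
    rw [hN₀]
    obtain ⟨M, hM⟩ : ∃ M : Subgroup Y, M = B'.comap (QuotientGroup.mk' H) ⊓ B := ⟨_, rfl⟩
    have hHM : H ≤ M := by
      rw [hM]
      refine le_inf ?_ hHB
      intro h hh
      rw [Subgroup.mem_comap]
      have h1 : (QuotientGroup.mk' H) h = 1 := (QuotientGroup.eq_one_iff h).mpr hh
      rw [h1]; exact B'.one_mem
    have hMB : M ≤ B := hM ▸ inf_le_right
    have hMmk : ∀ m ∈ M, (QuotientGroup.mk m : Y ⧸ H) ∈ B' := by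
      intro m hm
      have hm' : m ∈ B'.comap (QuotientGroup.mk' H) ⊓ B := hM ▸ hm
      exact (Subgroup.mem_inf.mp hm').1
    have hyM : y ∈ Subgroup.normalizer (M : Set Y) := by
      apply mem_normalizer_of_cj_le
      intro z hz
      obtain ⟨m, hm, rfl⟩ := mem_cj'.mp hz
      have h1 : y * m * y⁻¹ * m⁻¹ ∈ H := by
        rw [← QuotientGroup.eq_one_iff]
        have h2 := Subgroup.mem_centralizer_iff.mp hqC _ (hMmk m hm)
        rw [QuotientGroup.mk_mul, QuotientGroup.mk_mul, QuotientGroup.mk_mul,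
          QuotientGroup.mk_inv, QuotientGroup.mk_inv, ← h2, mul_inv_cancel_right,
          mul_inv_cancel]
      have e : y * m * y⁻¹ = (y * m * y⁻¹ * m⁻¹) * m := by group
      rw [e]
      exact M.mul_mem (hHM h1) hm
    have hcvM : V ⊓ Subgroup.centralizer (M : Set Y) = V₀ := by
      have hle : V₀ ≤ V ⊓ Subgroup.centralizer (M : Set Y) := by
        rw [hV₀]
        exact inf_le_inf_left V (Subgroup.centralizer_le (SetLike.coe_subset_coe.mpr hMB))
      by_cases hMeq : M = B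
      · rw [hMeq, hV₀]
      · symm
        apply Subgroup.eq_of_le_of_card_ge hle
        have hMH : M ≠ H := by
          intro hMH
          have hB'bot : B' = ⊥ := by
            rw [eq_bot_iff]
            intro β hβ
            have h1 := hB'le hβ
            rw [hBq] at h1
            obtain ⟨b, hb, rfl⟩ := h1
            have h2 : b ∈ M := by rw [hM]; exact Subgroup.mem_inf.mpr ⟨hβ, hb⟩
            rw [hMH] at h2
            rw [Subgroup.mem_bot]
            exact (QuotientGroup.eq_one_iff b).mpr h2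
          rw [hB'bot, Subgroup.relIndex_bot_left] at hB'idx
          omega
        have hMquad : M ≤ Subgroup.centralizer ((⁅V, M⁆ : Subgroup Y) : Set Y) :=
          (hMB.trans hquad).trans (Subgroup.centralizer_le
            (SetLike.coe_subset_coe.mpr (Subgroup.commutator_mono le_rfl hMB)))
        have hMcard : Nat.card M < Nat.card B := card_lt_of_lt' (lt_of_le_of_ne hMB hMeq)
        have hnot : Nat.card M * Nat.card ↥(V ⊓ Subgroup.centralizer (M : Set Y)) <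
            Nat.card H * Nat.card V := by
          by_contra h
          push Not at h
          have h5 := hmin M hHM (hMB.trans hBT) hMH hMquad h
          omega
        have hidxM : M.relIndex B ≤ 2 := by
          rw [hM, Subgroup.inf_relIndex_right, Subgroup.relIndex_comap, ← hBq]
          exact hB'idx
        have hcM := tv_card_mul_relIndex M B hMB
        have hB2M : Nat.card B ≤ 2 * Nat.card M := by
          rw [← hcM, mul_comm 2]; exact Nat.mul_le_mul_left _ hidxM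
        have hdvd : Nat.card V₀ ∣ Nat.card ↥(V ⊓ Subgroup.centralizer (M : Set Y)) :=
          Subgroup.card_dvd_of_le hle
        rw [← hV₀] at hoff
        have h7 : Nat.card M * Nat.card ↥(V ⊓ Subgroup.centralizer (M : Set Y)) <
            Nat.card M * (2 * Nat.card V₀) := by
          calc Nat.card M * Nat.card ↥(V ⊓ Subgroup.centralizer (M : Set Y))
              < Nat.card H * Nat.card V := hnot
            _ ≤ Nat.card B * Nat.card V₀ := hoff
            _ ≤ (2 * Nat.card M) * Nat.card V₀ := Nat.mul_le_mul_right _ hB2M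
            _ = Nat.card M * (2 * Nat.card V₀) := by ring
        have h8 : Nat.card ↥(V ⊓ Subgroup.centralizer (M : Set Y)) < 2 * Nat.card V₀ :=
          Nat.lt_of_mul_lt_mul_left h7
        obtain ⟨c, hc⟩ := hdvd
        have hpos : 0 < Nat.card ↥(V ⊓ Subgroup.centralizer (M : Set Y)) := Nat.card_pos
        have hc1 : c = 1 := by
          rcases c with _ | _ | c
          · rw [mul_zero] at hc; omega
          · rfl
          · exfalso
            rw [hc] at h8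
            have h9 : Nat.card V₀ * 2 ≤ Nat.card V₀ * (c + 1 + 1) :=
              Nat.mul_le_mul_left _ (by omega)
            omega
        rw [hc, hc1, mul_one]
    apply mem_normalizer_of_cj_eq_self
    rw [← hcvM, cj_inf, cj_eq_of_normal y V, ← centralizer_cj, cj_eq_self_of_mem_normalizer hyM]
  have hKN : ∀ k : Y, (QuotientGroup.mk k : Y ⧸ H) ∈ Qb → k ∈ N₀ := by
    intro k hk
    obtain ⟨y, hy, hyk⟩ := hQN hk
    have h1 : y⁻¹ * k ∈ H := QuotientGroup.eq.mp hyk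
    have h2 := N₀.mul_mem hy (hHN₀ h1)
    rwa [mul_inv_cancel_left] at h2
  have hbSt : ∀ b ∈ B, b ∈ qoStab V₀ V := by
    intro b hb
    refine mem_qoStab.mpr ⟨fun v hv => ?_, fun v hv => ?_⟩
    · exact Subgroup.mem_centralizer_iff.mp (Subgroup.mem_inf.mp (hV₀ ▸ hv)).2 b hb
    · rw [hV₀]
      refine Subgroup.mem_inf.mpr ⟨V.mul_mem (hVn.conj_mem v hv b) (V.inv_mem hv), ?_⟩
      have h1 : b * v * b⁻¹ * v⁻¹ ∈ ⁅V, B⁆ := by
        have h2 := Subgroup.inv_mem _ (Subgroup.commutator_mem_commutator (H₁ := V) (H₂ := B) hv hb)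
        have e : b * v * b⁻¹ * v⁻¹ = ⁅v, b⁆⁻¹ := by rw [commutatorElement_def]; group
        rw [e]; exact h2
      exact (Subgroup.le_centralizer_iff.mp hquad) h1
  have hKB : ∀ k : Y, (QuotientGroup.mk k : Y ⧸ H) ∈ Qb → ∀ b ∈ B, k * b * k⁻¹ * b⁻¹ ∈ H := by
    intro k hk b hb
    have hkN := hKN k hk
    have h1 : k * b * k⁻¹ ∈ qoStab V₀ V := qo_stab_conj V₀ V (hN₀ ▸ hkN) (hbSt b hb)
    have h2 : k * b * k⁻¹ * b⁻¹ ∈ qoStab V₀ V :=
      (qoStab V₀ V).mul_mem h1 ((qoStab V₀ V).inv_mem (hbSt b hb))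
    have h3 : (k * b * k⁻¹ * b⁻¹) ^ 2 ∈ H :=
      hCV (qo_stab_sq V₀ V (fun v hv => hV2 v (hV₀V hv)) h2)
    have h4 : (QuotientGroup.mk (k * b * k⁻¹ * b⁻¹) : Y ⧸ H) ∈ Qb := by
      have e : (QuotientGroup.mk (k * b * k⁻¹ * b⁻¹) : Y ⧸ H) = QuotientGroup.mk k *
          (QuotientGroup.mk b * (QuotientGroup.mk k)⁻¹ * (QuotientGroup.mk b)⁻¹) := by
        simp only [QuotientGroup.mk_mul, QuotientGroup.mk_inv]; group
      rw [e]
      exact Qb.mul_mem hk (hQn.conj_mem _ (Qb.inv_mem hk) _)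
    rw [← QuotientGroup.eq_one_iff]
    have h5 : (QuotientGroup.mk (k * b * k⁻¹ * b⁻¹) : Y ⧸ H) ^ 2 = 1 := by
      rw [← QuotientGroup.mk_pow]; exact (QuotientGroup.eq_one_iff _).mpr h3
    have h6 : orderOf (QuotientGroup.mk (k * b * k⁻¹ * b⁻¹) : Y ⧸ H) ∣ 2 :=
      orderOf_dvd_of_pow_eq_one h5
    have h7 : orderOf (QuotientGroup.mk (k * b * k⁻¹ * b⁻¹) : Y ⧸ H) ∣ Nat.card Qb := by
      have h8 := orderOf_dvd_natCard (⟨_, h4⟩ : ↥Qb)
      rwa [Subgroup.orderOf_mk] at h8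
    have h8 : orderOf (QuotientGroup.mk (k * b * k⁻¹ * b⁻¹) : Y ⧸ H) = 1 :=
      Nat.eq_one_of_dvd_coprimes hQc h7 h6
    exact orderOf_eq_one_iff.mp h8
  obtain ⟨K, hK⟩ : ∃ K : Subgroup Y, K = Qb.comap (QuotientGroup.mk' H) := ⟨_, rfl⟩
  haveI hKn : K.Normal := hK ▸ hQn.comap _
  have hKT : K ⊔ (T : Subgroup Y) = ⊤ := by
    rw [← Subgroup.index_eq_one]
    obtain ⟨k, hk⟩ := hQi
    have hKi : K.index = 2 ^ k := by
      rw [hK, Subgroup.index_comap_of_surjective _ (QuotientGroup.mk'_surjective H)]; exact hk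
    have h1 : (K ⊔ (T : Subgroup Y)).index ∣ 2 ^ k := hKi ▸ Subgroup.index_dvd_of_le le_sup_left
    have h2 : (K ⊔ (T : Subgroup Y)).index ∣ (T : Subgroup Y).index :=
      Subgroup.index_dvd_of_le le_sup_right
    have h3 : ((T : Subgroup Y).index).Coprime (2 ^ k) := by
      apply Nat.Coprime.pow_right
      rw [Nat.coprime_comm, Nat.Prime.coprime_iff_not_dvd Nat.prime_two]
      exact T.not_dvd_index
    exact Nat.eq_one_of_dvd_coprimes h3 h2 h1
  have hconjT : ∀ g : Y, ∀ b ∈ B, g * b * g⁻¹ ∈ (T : Subgroup Y) := by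
    intro g b hb
    have hg : g⁻¹ ∈ K ⊔ (T : Subgroup Y) := by rw [hKT]; exact Subgroup.mem_top _
    obtain ⟨k, hk, t, ht, hgkt⟩ := mem_sup_of_le_normalizer (A := K) (B := (T : Subgroup Y))
      (by rw [Subgroup.normalizer_eq_top]; exact le_top) hg
    have hg' : g = t⁻¹ * k⁻¹ := by
      have h1 : g = (g⁻¹)⁻¹ := (inv_inv g).symm
      rw [h1, hgkt, mul_inv_rev]
    have hk' : (QuotientGroup.mk k⁻¹ : Y ⧸ H) ∈ Qb := by
      have h1 : k⁻¹ ∈ K := K.inv_mem hk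
      rw [hK] at h1; exact h1
    have h1 := hKB k⁻¹ hk' b hb
    have e : g * b * g⁻¹ = t⁻¹ * ((k⁻¹ * b * k⁻¹⁻¹ * b⁻¹) * b) * t := by rw [hg']; group
    rw [e]
    exact Subgroup.mul_mem _ (Subgroup.mul_mem _ (Subgroup.inv_mem _ ht)
      (Subgroup.mul_mem _ (hHT h1) (hBT hb))) ht
  have hNC : Subgroup.normalClosure (B : Set Y) ≤ (T : Subgroup Y) := by
    show Subgroup.closure (Group.conjugatesOfSet (B : Set Y)) ≤ _
    rw [Subgroup.closure_le]
    intro z hz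
    obtain ⟨b, hb, hconj⟩ := Group.mem_conjugatesOfSet_iff.mp hz
    obtain ⟨c, rfl⟩ := isConj_iff.mp hconj
    exact hconjT c b hb
  have h9 : Subgroup.normalClosure (B : Set Y) ≤ H :=
    hO2 _ Subgroup.normalClosure_normal (T.2.to_le hNC)
  exact hBH (le_antisymm (Subgroup.le_normalClosure.trans h9) hHB)

/-- an offender on `V` with abelian image gives the symmetric group of degree `4`. -/
theorem s4_of_offender (H V : Subgroup Y) (T : Sylow 2 Y) [hHn : H.Normal] [hVn : V.Normal]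
    (hH2 : IsPGroup 2 H) (hHT : H ≤ (T : Subgroup Y)) (hVH : V ≤ H)
    (hVc : H ≤ Subgroup.centralizer (V : Set Y))
    (hV2 : ∀ v ∈ V, v * v = 1) (hCV : Subgroup.centralizer (V : Set Y) ≤ H)
    (hO2 : ∀ N : Subgroup Y, N.Normal → IsPGroup 2 N → N ≤ H)
    (Qb : Subgroup (Y ⧸ H)) (hQn : Qb.Normal) (hQc : (Nat.card Qb).Coprime 2)
    (hQi : ∃ k : ℕ, Qb.index = 2 ^ k)
    (B₁ : Subgroup Y) (hHB₁ : H ≤ B₁) (hB₁T : B₁ ≤ (T : Subgroup Y)) (hB₁H : B₁ ≠ H)
    (hab : ⁅B₁, B₁⁆ ≤ H)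
    (hoff : Nat.card H * Nat.card V ≤
      Nat.card B₁ * Nat.card ↥(V ⊓ Subgroup.centralizer (B₁ : Set Y))) :
    Cfsg.Involves (Equiv.Perm (Fin 4)) Y := by
  classical
  have hV : Cfsg.IsElementaryAbelian 2 V :=
    ⟨Subgroup.le_centralizer_iff_isMulCommutative.mp (hVH.trans hVc),
      fun a ha => by rw [pow_two]; exact hV2 a ha⟩
  obtain ⟨B₂, h1, h2, h3, h4, h5⟩ := qo_exists_quadratic H V (T : Subgroup Y) T.2 hHT hVH hVc hV
    hCV B₁ hHB₁ hB₁T hB₁H hab hoff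
  obtain ⟨𝒬, h𝒬⟩ : ∃ 𝒬 : Set (Subgroup Y), 𝒬 = {D | H ≤ D ∧ D ≤ (T : Subgroup Y) ∧ D ≠ H ∧
      D ≤ Subgroup.centralizer ((⁅V, D⁆ : Subgroup Y) : Set Y) ∧
      Nat.card H * Nat.card V ≤ Nat.card D * Nat.card ↥(V ⊓ Subgroup.centralizer (D : Set Y))} :=
    ⟨_, rfl⟩
  obtain ⟨B, hB𝒬, hBmin⟩ := Set.exists_min_image 𝒬 (fun D => Nat.card D) (Set.toFinite _)
    ⟨B₂, by rw [h𝒬]; exact ⟨h1, h2, h3, h4, h5⟩⟩
  rw [h𝒬] at hB𝒬
  obtain ⟨hHB, hBT, hBH, hquad, hoffB⟩ := hB𝒬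
  have hcard := qo_min_transvection H V T hHT hVc hV2 hCV hO2 Qb hQn hQc hQi B hHB hBT hBH
    hquad hoffB (fun D d1 d2 d3 d4 d5 => hBmin D (by rw [h𝒬]; exact ⟨d1, d2, d3, d4, d5⟩))
  obtain ⟨b, hbB, hbH⟩ : ∃ b ∈ B, b ∉ H := by
    by_contra hcon
    push Not at hcon
    exact hBH (le_antisymm hcon hHB)
  refine s4_of_transvection H V (V ⊓ Subgroup.centralizer (B : Set Y)) hH2 hVH hVc hV2 hCV hO2 b
    hbH (hCV (qo_sq_mem V B hV2 hquad hbB)) inf_le_left ?_ ?_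
  · intro v hv
    exact Subgroup.mem_centralizer_iff.mp (Subgroup.mem_inf.mp hv).2 b hbB
  · have hpos : 0 < Nat.card H := Nat.card_pos
    have h6 : Nat.card H * Nat.card V ≤
        Nat.card H * (2 * Nat.card ↥(V ⊓ Subgroup.centralizer (B : Set Y))) := by
      calc Nat.card H * Nat.card V
          ≤ Nat.card B * Nat.card ↥(V ⊓ Subgroup.centralizer (B : Set Y)) := hoffB
        _ ≤ (2 * Nat.card H) * Nat.card ↥(V ⊓ Subgroup.centralizer (B : Set Y)) :=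
            Nat.mul_le_mul_right _ hcard
        _ = _ := by ring
    exact Nat.le_of_mul_le_mul_left h6 hpos

end QOff

end Cfsg.Agent.Helper13
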