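import Mathlib
import Cfsg.Prelude.Def_Classical
import Cfsg.Prelude.Def_ClassicalGeometry

set_option autoImplicit false
open Cfsg

namespace Cfsg.Agent.Helper13
namespace SO33

open Matrix

variable (F : Type*) [Field F]

/-- columns: a basis of the sum-zero subspace of `F^4` (characteristic 3) -/
def E : Matrix (Fin 4) (Unit ⊕ (Fin 1 ⊕ Fin 1)) F := fun j i =>
  Sum.elim (fun _ => (![0, 1, -1, 0] : Fin 4 → F) j)
    (Sum.elim (fun _ => (![1, 1, 1, 0] : Fin 4 → F) j)
      (fun _ => (![0, -1, -1, -1] : Fin 4 → F) j)) i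

/-- rows: the dual basis -/
def D : Matrix (Unit ⊕ (Fin 1 ⊕ Fin 1)) (Fin 4) F := fun i j =>
  Sum.elim (fun _ => (![0, -1, 1, 0] : Fin 4 → F) j)
    (Sum.elim (fun _ => (![0, -1, -1, -1] : Fin 4 → F) j)
      (fun _ => (![1, 1, 1, 0] : Fin 4 → F) j)) i

/-- the all-ones matrix -/
def J : Matrix (Fin 4) (Fin 4) F := fun _ _ => 1

/-- permutation matrices -/
def P (σ : Equiv.Perm (Fin 4)) : Matrix (Fin 4) (Fin 4) F := fun i j => if σ j = i then 1 else 0

variable {F}

theorem DE (h3 : (3 : F) = 0) : D F * E F = 1 := by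
  ext i k
  rcases i with i | i | i <;> rcases k with k | k | k <;>
    simp [Matrix.mul_apply, D, E, Fin.sum_univ_four, Matrix.one_apply,
      eq_iff_true_of_subsingleton] <;>
    first
      | linear_combination (0 : F) * h3
      | linear_combination (1 : F) * h3
      | linear_combination (-1 : F) * h3
      | linear_combination (2 : F) * h3
      | linear_combination (-2 : F) * h3

theorem ED (h3 : (3 : F) = 0) : E F * D F = 1 - J F := by
  ext j l
  fin_cases j <;> fin_cases l <;>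
    simp [Matrix.mul_apply, D, E, J, Matrix.one_apply] <;>
    first
      | linear_combination (0 : F) * h3
      | linear_combination (1 : F) * h3
      | linear_combination (-1 : F) * h3
      | linear_combination (2 : F) * h3
      | linear_combination (-2 : F) * h3

theorem JE (h3 : (3 : F) = 0) : J F * E F = 0 := by
  ext j k
  rcases k with k | k | k <;>
    simp [Matrix.mul_apply, E, J, Fin.sum_univ_four] <;>
    first
      | linear_combination (0 : F) * h3
      | linear_combination (1 : F) * h3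
      | linear_combination (-1 : F) * h3
      | linear_combination (2 : F) * h3
      | linear_combination (-2 : F) * h3

theorem P_mul (σ τ : Equiv.Perm (Fin 4)) : P F σ * P F τ = P F (σ * τ) := by
  ext i k
  rw [Matrix.mul_apply, Finset.sum_eq_single (τ k)]
  · show (if σ (τ k) = i then (1 : F) else 0) * (if τ k = τ k then (1 : F) else 0) =
      if σ (τ k) = i then (1 : F) else 0
    rw [if_pos rfl, mul_one]
  · intro j _ hj
    simp [P, Ne.symm hj]
  · intro h
    exact absurd (Finset.mem_univ _) h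

theorem P_one : P F 1 = 1 := by
  ext i j
  simp [P, Matrix.one_apply, eq_comm]

theorem J_P (τ : Equiv.Perm (Fin 4)) : J F * P F τ = J F := by
  ext i k
  simp [Matrix.mul_apply, J, P]

theorem P_J (τ : Equiv.Perm (Fin 4)) : P F τ * J F = J F := by
  ext i k
  rw [Matrix.mul_apply, Finset.sum_eq_single (τ.symm i)]
  · simp [P, J]
  · intro j _ hj
    have : τ j ≠ i := fun h => hj (by rw [← h]; simp)
    simp [P, this]
  · intro h
    exact absurd (Finset.mem_univ _) h

theorem P_mulVec (σ : Equiv.Perm (Fin 4)) (w : Fin 4 → F) (i : Fin 4) :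
    (P F σ *ᵥ w) i = w (σ.symm i) := by
  show ∑ j, P F σ i j * w j = w (σ.symm i)
  rw [Finset.sum_eq_single (σ.symm i)]
  · simp [P]
  · intro j _ hj
    have : σ j ≠ i := fun h => hj (by rw [← h]; simp)
    simp [P, this]
  · intro h
    exact absurd (Finset.mem_univ _) h

variable (F)

/-- the untwisted representation -/
def M0 (σ : Equiv.Perm (Fin 4)) : Matrix (Unit ⊕ (Fin 1 ⊕ Fin 1)) (Unit ⊕ (Fin 1 ⊕ Fin 1)) F :=
  D F * P F σ * E F

variable {F}

theorem M0_mul (h3 : (3 : F) = 0) (σ τ : Equiv.Perm (Fin 4)) :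
    M0 F σ * M0 F τ = M0 F (σ * τ) := by
  unfold M0
  calc D F * P F σ * E F * (D F * P F τ * E F)
      = D F * P F σ * (E F * D F) * (P F τ * E F) := by simp only [Matrix.mul_assoc]
    _ = D F * P F σ * (1 - J F) * (P F τ * E F) := by rw [ED h3]
    _ = D F * (P F σ * P F τ) * E F - D F * P F σ * (J F * P F τ * E F) := by
        rw [Matrix.mul_sub, Matrix.sub_mul, Matrix.mul_one]
        simp only [Matrix.mul_assoc]
    _ = D F * P F (σ * τ) * E F := by
        rw [J_P, JE h3, Matrix.mul_zero, sub_zero, P_mul]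

theorem M0_one (h3 : (3 : F) = 0) : M0 F 1 = 1 := by
  unfold M0
  rw [P_one, Matrix.mul_one, DE h3]

variable (F)

/-- the determinant twist -/
noncomputable def dl (σ : Equiv.Perm (Fin 4)) : F := (M0 F σ).det

variable {F}

theorem dl_mul (h3 : (3 : F) = 0) (σ τ : Equiv.Perm (Fin 4)) :
    dl F (σ * τ) = dl F σ * dl F τ := by
  unfold dl
  rw [← M0_mul h3, Matrix.det_mul]

theorem dl_one (h3 : (3 : F) = 0) : dl F 1 = 1 := by
  unfold dl
  rw [M0_one h3, Matrix.det_one]

theorem dl_ne_zero (h3 : (3 : F) = 0) (σ : Equiv.Perm (Fin 4)) : dl F σ ≠ 0 := by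
  intro h
  have h1 := dl_mul (F := F) h3 σ σ⁻¹
  rw [mul_inv_cancel, dl_one h3, h, zero_mul] at h1
  exact one_ne_zero h1

variable (F)

/-- the twisted representation, of determinant one -/
noncomputable def M (σ : Equiv.Perm (Fin 4)) :
    Matrix (Unit ⊕ (Fin 1 ⊕ Fin 1)) (Unit ⊕ (Fin 1 ⊕ Fin 1)) F :=
  dl F σ • M0 F σ

variable {F}

theorem M_mul (h3 : (3 : F) = 0) (σ τ : Equiv.Perm (Fin 4)) :
    M F (σ * τ) = M F σ * M F τ := by
  unfold M
  rw [Matrix.smul_mul, Matrix.mul_smul, smul_smul, M0_mul h3, dl_mul h3, mul_comm]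

theorem M_one (h3 : (3 : F) = 0) : M F 1 = 1 := by
  unfold M
  rw [dl_one h3, M0_one h3, one_smul]

theorem M_det (h3 : (3 : F) = 0) (hsq : ∀ x : F, x ≠ 0 → x ^ 2 = 1) (σ : Equiv.Perm (Fin 4)) :
    (M F σ).det = 1 := by
  unfold M
  rw [Matrix.det_smul]
  have hc : Fintype.card (Unit ⊕ (Fin 1 ⊕ Fin 1)) = 3 := by simp
  rw [hc]
  have h := hsq _ (dl_ne_zero h3 σ)
  show dl F σ ^ 3 * dl F σ = 1
  calc dl F σ ^ 3 * dl F σ = (dl F σ ^ 2) ^ 2 := by ring
    _ = 1 := by rw [h, one_pow]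

/-- the sum of squares on `F^4` -/
def N (w : Fin 4 → F) : F := ∑ j, w j ^ 2

theorem Q_eq (h3 : (3 : F) = 0) (v : Unit ⊕ (Fin 1 ⊕ Fin 1) → F) :
    Cfsg.quadFormOdd 1 F v = - N (E F *ᵥ v) := by
  simp [Cfsg.quadFormOdd, N, E, Matrix.mulVec, dotProduct, Fin.sum_univ_four]
  linear_combination
    (v (Sum.inl ()) ^ 2 + v (Sum.inr (Sum.inl 0)) ^ 2 + v (Sum.inr (Sum.inr 0)) ^ 2
      - v (Sum.inr (Sum.inl 0)) * v (Sum.inr (Sum.inr 0))) * h3

theorem N_smul (c : F) (w : Fin 4 → F) : N (c • w) = c ^ 2 * N w := by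
  simp [N, mul_pow, Finset.mul_sum]

theorem N_P (σ : Equiv.Perm (Fin 4)) (w : Fin 4 → F) : N (P F σ *ᵥ w) = N w := by
  unfold N
  simp only [P_mulVec]
  exact Equiv.sum_comp σ.symm (fun i => w i ^ 2)

theorem E_M (h3 : (3 : F) = 0) (σ : Equiv.Perm (Fin 4)) :
    E F * M F σ = dl F σ • (P F σ * E F) := by
  unfold M M0
  rw [Matrix.mul_smul]
  congr 1
  calc E F * (D F * P F σ * E F) = (E F * D F) * (P F σ * E F) := by
        simp only [Matrix.mul_assoc]
    _ = (1 - J F) * (P F σ * E F) := by rw [ED h3]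
    _ = P F σ * E F - J F * P F σ * E F := by
        rw [Matrix.sub_mul, Matrix.one_mul, Matrix.mul_assoc]
    _ = P F σ * E F := by rw [J_P, JE h3, sub_zero]

theorem Q_M (h3 : (3 : F) = 0) (hsq : ∀ x : F, x ≠ 0 → x ^ 2 = 1) (σ : Equiv.Perm (Fin 4))
    (v : Unit ⊕ (Fin 1 ⊕ Fin 1) → F) :
    Cfsg.quadFormOdd 1 F (M F σ *ᵥ v) = Cfsg.quadFormOdd 1 F v := by
  rw [Q_eq h3, Q_eq h3, Matrix.mulVec_mulVec, E_M h3, Matrix.smul_mulVec, N_smul,
    ← Matrix.mulVec_mulVec, N_P, hsq _ (dl_ne_zero h3 σ), one_mul]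

theorem M_inj (h3 : (3 : F) = 0) (σ : Equiv.Perm (Fin 4)) (h : M F σ = 1) :
    σ = 1 := by
  have h1 : dl F σ • (P F σ - J F) = 1 - J F := by
    have h2 := E_M (F := F) h3 σ
    rw [h, Matrix.mul_one] at h2
    have h4 := congrArg (fun X => X * D F) h2
    rw [Matrix.smul_mul, Matrix.mul_assoc, ED h3, Matrix.mul_sub, Matrix.mul_one, P_J] at h4
    exact h4.symm
  ext j
  have h5 := congrFun (congrFun h1 j) j
  simp only [Matrix.smul_apply, Matrix.sub_apply, Matrix.one_apply_eq, J, P, smul_eq_mul,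
    sub_self] at h5
  by_contra hne
  have hne' : σ j ≠ j := fun h => hne (by rw [h]; rfl)
  rw [if_neg hne'] at h5
  have := dl_ne_zero (F := F) h3 σ
  apply this
  linear_combination -h5

end SO33
end Cfsg.Agent.Helper13
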