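import Mathlib

set_option autoImplicit false

namespace Cfsg.Agent.Helper13
namespace SU32

/-- the field with four elements, as pairs `x + y ω` with `ω ^ 2 = ω + 1` -/
def K4 : Type := ZMod 2 × ZMod 2

instance : DecidableEq K4 := inferInstanceAs (DecidableEq (ZMod 2 × ZMod 2))
instance : Fintype K4 := inferInstanceAs (Fintype (ZMod 2 × ZMod 2))
instance : AddCommGroup K4 := inferInstanceAs (AddCommGroup (ZMod 2 × ZMod 2))
instance : Mul K4 :=
  ⟨fun a b => (a.1 * b.1 + a.2 * b.2, a.1 * b.2 + a.2 * b.1 + a.2 * b.2)⟩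
instance : One K4 := ⟨((1 : ZMod 2), (0 : ZMod 2))⟩

instance : CommRing K4 :=
  { (inferInstance : AddCommGroup K4), (inferInstance : Mul K4), (inferInstance : One K4) with
    mul_assoc := by decide
    one_mul := by decide
    mul_one := by decide
    left_distrib := by decide
    right_distrib := by decide
    zero_mul := by decide
    mul_zero := by decide
    mul_comm := by decide }

/-- the generator `ω` -/
def w : K4 := ((0 : ZMod 2), (1 : ZMod 2))
/-- `ω ^ 2` -/
def w2 : K4 := ((1 : ZMod 2), (1 : ZMod 2))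

def aK : Matrix (Fin 3) (Fin 3) K4 := !![1, 1, 1; 1, w, w2; 1, w2, w]
def bK : Matrix (Fin 3) (Fin 3) K4 := !![1, w, w; w2, w, w2; w2, w2, w]
def cK : Matrix (Fin 3) (Fin 3) K4 := !![0, 1, 0; 0, 0, 1; 1, 0, 0]
def dK : Matrix (Fin 3) (Fin 3) K4 := !![w, 0, 0; 0, w2, 0; 0, 0, 1]
def zK : Matrix (Fin 3) (Fin 3) K4 := !![w, 0, 0; 0, w, 0; 0, 0, w]

theorem aba : aK * bK * aK = bK := by decide
theorem bb : bK * bK = aK * aK := by decide
theorem a4 : aK * aK * (aK * aK) = 1 := by decide
theorem c3 : cK * cK * cK = 1 := by decide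
theorem d3 : dK * dK * dK = 1 := by decide
theorem cd : cK * dK = zK * (dK * cK) := by decide
theorem ac : aK * cK = zK * (dK * dK * aK) := by decide
theorem ad : aK * dK = zK * (cK * aK) := by decide
theorem bc : bK * cK = cK * dK * bK := by decide
theorem bd : bK * dK = zK * (cK * dK * dK * bK) := by decide
theorem aa12 : (aK * aK) 1 2 = 1 := by decide

theorem orthK :
    (∀ j k : Fin 3, ∑ i, aK i j * aK i k ^ 2 = if j = k then 1 else 0) ∧
    (∀ j k : Fin 3, ∑ i, bK i j * bK i k ^ 2 = if j = k then 1 else 0) ∧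
    (∀ j k : Fin 3, ∑ i, cK i j * cK i k ^ 2 = if j = k then 1 else 0) ∧
    (∀ j k : Fin 3, ∑ i, dK i j * dK i k ^ 2 = if j = k then 1 else 0) ∧
    (∀ j k : Fin 3, ∑ i, zK i j * zK i k ^ 2 = if j = k then 1 else 0) := by decide

theorem detK : aK.det = 1 ∧ bK.det = 1 ∧ cK.det = 1 ∧ dK.det = 1 ∧ zK.det = 1 := by
  simp only [Matrix.det_fin_three]
  decide

end SU32
end Cfsg.Agent.Helper13
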