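import Cfsg.Agent.Helper13.SU32a
import Cfsg.Agent.Helper3.Unitary
import Cfsg.Agent.Helper23.Quat
import Cfsg.Agent.Helper17.Basic

set_option autoImplicit false
open Cfsg

namespace Cfsg.Agent.Helper13
namespace SU32

open Matrix

noncomputable section

variable {F : Type*} [Field F]

theorem hpres_of_orth (h2 : (2 : F) = 0) (M : Matrix (Fin 3) (Fin 3) F)
    (h : ∀ j k : Fin 3, ∑ i, M i j * M i k ^ 2 = if j = k then 1 else 0) :
    ∀ u v : Fin 3 → F, Cfsg.hermForm 3 F 2 (M *ᵥ u) (M *ᵥ v) = Cfsg.hermForm 3 F 2 u v := by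
  intro u v
  have H : ∀ j k : Fin 3, M 0 j * M 0 k ^ 2 + M 1 j * M 1 k ^ 2 + M 2 j * M 2 k ^ 2 =
      if j = k then 1 else 0 := fun j k => by rw [← h j k, Fin.sum_univ_three]
  have H00 := (H 0 0).trans (if_pos rfl)
  have H01 := (H 0 1).trans (if_neg (by decide))
  have H02 := (H 0 2).trans (if_neg (by decide))
  have H10 := (H 1 0).trans (if_neg (by decide))
  have H11 := (H 1 1).trans (if_pos rfl)
  have H12 := (H 1 2).trans (if_neg (by decide))
  have H20 := (H 2 0).trans (if_neg (by decide))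
  have H21 := (H 2 1).trans (if_neg (by decide))
  have H22 := (H 2 2).trans (if_pos rfl)
  simp only [Cfsg.hermForm, Matrix.mulVec, dotProduct, Fin.sum_univ_three]
  linear_combination (u 0 * v 0 ^ 2) * H00 + (u 0 * v 1 ^ 2) * H01 + (u 0 * v 2 ^ 2) * H02 + (u 1 * v 0 ^ 2) * H10 + (u 1 * v 1 ^ 2) * H11 + (u 1 * v 2 ^ 2) * H12 + (u 2 * v 0 ^ 2) * H20 + (u 2 * v 1 ^ 2) * H21 + (u 2 * v 2 ^ 2) * H22
    + ((M 0 0 * u 0 + M 0 1 * u 1 + M 0 2 * u 2) * (M 0 0 * v 0 * (M 0 1 * v 1) + M 0 0 * v 0 * (M 0 2 * v 2) + M 0 1 * v 1 * (M 0 2 * v 2))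
      + (M 1 0 * u 0 + M 1 1 * u 1 + M 1 2 * u 2) * (M 1 0 * v 0 * (M 1 1 * v 1) + M 1 0 * v 0 * (M 1 2 * v 2) + M 1 1 * v 1 * (M 1 2 * v 2))
      + (M 2 0 * u 0 + M 2 1 * u 1 + M 2 2 * u 2) * (M 2 0 * v 0 * (M 2 1 * v 1) + M 2 0 * v 0 * (M 2 2 * v 2) + M 2 1 * v 1 * (M 2 2 * v 2))) * h2

variable [CharP F 2]

/-- the embedding of `K4` given by a root of `X ^ 2 + X + 1` -/
def phi (ω : F) (hω : ω ^ 2 = ω + 1) : K4 →+* F where
  toFun x := ZMod.castHom (dvd_refl 2) F x.1 + ZMod.castHom (dvd_refl 2) F x.2 * ω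
  map_one' := by
    show ZMod.castHom (dvd_refl 2) F (1 : ZMod 2) + ZMod.castHom (dvd_refl 2) F (0 : ZMod 2) * ω = 1
    rw [map_one, map_zero, zero_mul, add_zero]
  map_mul' := by
    intro x y
    show ZMod.castHom (dvd_refl 2) F (x.1 * y.1 + x.2 * y.2) +
        ZMod.castHom (dvd_refl 2) F (x.1 * y.2 + x.2 * y.1 + x.2 * y.2) * ω =
      (ZMod.castHom (dvd_refl 2) F x.1 + ZMod.castHom (dvd_refl 2) F x.2 * ω) *
        (ZMod.castHom (dvd_refl 2) F y.1 + ZMod.castHom (dvd_refl 2) F y.2 * ω)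
    simp only [map_add, map_mul]
    linear_combination
      (-(ZMod.castHom (dvd_refl 2) F x.2 * ZMod.castHom (dvd_refl 2) F y.2)) * hω
  map_zero' := by
    show ZMod.castHom (dvd_refl 2) F (0 : ZMod 2) + ZMod.castHom (dvd_refl 2) F (0 : ZMod 2) * ω = 0
    rw [map_zero, zero_mul, add_zero]
  map_add' := by
    intro x y
    show ZMod.castHom (dvd_refl 2) F (x.1 + y.1) + ZMod.castHom (dvd_refl 2) F (x.2 + y.2) * ω =
      (ZMod.castHom (dvd_refl 2) F x.1 + ZMod.castHom (dvd_refl 2) F x.2 * ω) +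
        (ZMod.castHom (dvd_refl 2) F y.1 + ZMod.castHom (dvd_refl 2) F y.2 * ω)
    simp only [map_add]
    ring

theorem phi_w (ω : F) (hω : ω ^ 2 = ω + 1) : phi ω hω w = ω := by
  show ZMod.castHom (dvd_refl 2) F (0 : ZMod 2) + ZMod.castHom (dvd_refl 2) F (1 : ZMod 2) * ω = ω
  rw [map_one, map_zero, zero_add, one_mul]

variable [Fintype F] (ω : F) (hω : ω ^ 2 = ω + 1)

/-- the element of `SU₃(2)` attached to a unitary matrix over `K4` -/
def mk (M : Matrix (Fin 3) (Fin 3) K4) (hdet : M.det = 1)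
    (horth : ∀ j k : Fin 3, ∑ i, M i j * M i k ^ 2 = if j = k then 1 else 0) :
    ↥(Cfsg.SU 3 F 2) :=
  ⟨⟨(phi ω hω).mapMatrix M, by rw [← RingHom.map_det, hdet, map_one]⟩, by
    show ∀ u v : Fin 3 → F, Cfsg.hermForm 3 F 2 ((phi ω hω).mapMatrix M *ᵥ u)
      ((phi ω hω).mapMatrix M *ᵥ v) = Cfsg.hermForm 3 F 2 u v
    apply hpres_of_orth (CharTwo.two_eq_zero)
    intro j k
    have h := congrArg (phi ω hω) (horth j k)
    rw [map_sum, apply_ite (phi ω hω), map_one, map_zero] at h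
    rw [← h]
    apply Finset.sum_congr rfl
    intro i _
    rw [map_mul, map_pow]
    rfl⟩

theorem su_ext {x y : ↥(Cfsg.SU 3 F 2)} (h : x.1.1 = y.1.1) : x = y :=
  Subtype.ext (Subtype.ext h)

def eA : ↥(Cfsg.SU 3 F 2) := mk ω hω aK detK.1 orthK.1
def eB : ↥(Cfsg.SU 3 F 2) := mk ω hω bK detK.2.1 orthK.2.1
def eC : ↥(Cfsg.SU 3 F 2) := mk ω hω cK detK.2.2.1 orthK.2.2.1
def eD : ↥(Cfsg.SU 3 F 2) := mk ω hω dK detK.2.2.2.1 orthK.2.2.2.1
def eZ : ↥(Cfsg.SU 3 F 2) := mk ω hω zK detK.2.2.2.2 orthK.2.2.2.2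

theorem relABA : eA ω hω * eB ω hω * eA ω hω = eB ω hω := by
  apply su_ext
  show (phi ω hω).mapMatrix aK * (phi ω hω).mapMatrix bK * (phi ω hω).mapMatrix aK =
    (phi ω hω).mapMatrix bK
  rw [← map_mul, ← map_mul, aba]

theorem relBB : eB ω hω * eB ω hω = eA ω hω * eA ω hω := by
  apply su_ext
  show (phi ω hω).mapMatrix bK * (phi ω hω).mapMatrix bK =
    (phi ω hω).mapMatrix aK * (phi ω hω).mapMatrix aK
  rw [← map_mul, ← map_mul, bb]

theorem relA4 : eA ω hω * eA ω hω * (eA ω hω * eA ω hω) = 1 := by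
  apply su_ext
  show (phi ω hω).mapMatrix aK * (phi ω hω).mapMatrix aK *
    ((phi ω hω).mapMatrix aK * (phi ω hω).mapMatrix aK) = 1
  rw [← map_mul, ← map_mul, a4, map_one]

theorem relC3 : eC ω hω * eC ω hω * eC ω hω = 1 := by
  apply su_ext
  show (phi ω hω).mapMatrix cK * (phi ω hω).mapMatrix cK * (phi ω hω).mapMatrix cK = 1
  rw [← map_mul, ← map_mul, c3, map_one]

theorem relD3 : eD ω hω * eD ω hω * eD ω hω = 1 := by
  apply su_ext
  show (phi ω hω).mapMatrix dK * (phi ω hω).mapMatrix dK * (phi ω hω).mapMatrix dK = 1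
  rw [← map_mul, ← map_mul, d3, map_one]

theorem relCD : eC ω hω * eD ω hω = eZ ω hω * (eD ω hω * eC ω hω) := by
  apply su_ext
  show (phi ω hω).mapMatrix cK * (phi ω hω).mapMatrix dK =
    (phi ω hω).mapMatrix zK * ((phi ω hω).mapMatrix dK * (phi ω hω).mapMatrix cK)
  rw [← map_mul, ← map_mul, ← map_mul, cd]

theorem relAC : eA ω hω * eC ω hω = eZ ω hω * (eD ω hω * eD ω hω * eA ω hω) := by
  apply su_ext
  show (phi ω hω).mapMatrix aK * (phi ω hω).mapMatrix cK =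
    (phi ω hω).mapMatrix zK * ((phi ω hω).mapMatrix dK * (phi ω hω).mapMatrix dK *
      (phi ω hω).mapMatrix aK)
  rw [← map_mul, ← map_mul, ← map_mul, ← map_mul, ac]

theorem relAD : eA ω hω * eD ω hω = eZ ω hω * (eC ω hω * eA ω hω) := by
  apply su_ext
  show (phi ω hω).mapMatrix aK * (phi ω hω).mapMatrix dK =
    (phi ω hω).mapMatrix zK * ((phi ω hω).mapMatrix cK * (phi ω hω).mapMatrix aK)
  rw [← map_mul, ← map_mul, ← map_mul, ad]

theorem relBC : eB ω hω * eC ω hω = eC ω hω * eD ω hω * eB ω hω := by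
  apply su_ext
  show (phi ω hω).mapMatrix bK * (phi ω hω).mapMatrix cK =
    (phi ω hω).mapMatrix cK * (phi ω hω).mapMatrix dK * (phi ω hω).mapMatrix bK
  rw [← map_mul, ← map_mul, ← map_mul, bc]

theorem relBD : eB ω hω * eD ω hω =
    eZ ω hω * (eC ω hω * eD ω hω * eD ω hω * eB ω hω) := by
  apply su_ext
  show (phi ω hω).mapMatrix bK * (phi ω hω).mapMatrix dK =
    (phi ω hω).mapMatrix zK * ((phi ω hω).mapMatrix cK * (phi ω hω).mapMatrix dK *
      (phi ω hω).mapMatrix dK * (phi ω hω).mapMatrix bK)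
  rw [← map_mul, ← map_mul, ← map_mul, ← map_mul, ← map_mul, bd]

theorem eZ_val : (eZ ω hω).1.1 = ω • (1 : Matrix (Fin 3) (Fin 3) F) := by
  show (phi ω hω).mapMatrix zK = ω • (1 : Matrix (Fin 3) (Fin 3) F)
  ext i j
  rw [RingHom.mapMatrix_apply, Matrix.map_apply, Matrix.smul_apply, smul_eq_mul]
  fin_cases i <;> fin_cases j <;> simp [zK, phi_w]

theorem eZ_center : eZ ω hω ∈ Subgroup.center ↥(Cfsg.SU 3 F 2) := by
  rw [Subgroup.mem_center_iff]
  intro g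
  apply su_ext
  show g.1.1 * (eZ ω hω).1.1 = (eZ ω hω).1.1 * g.1.1
  rw [eZ_val, Matrix.mul_smul, Matrix.smul_mul, Matrix.mul_one, Matrix.one_mul]

theorem omega_ne_one {x : F} (hx : x ^ 2 = x + 1) : x ≠ 1 := by
  intro h
  rw [h] at hx
  have h2 : (2 : F) = 0 := CharTwo.two_eq_zero
  have : (1 : F) = 0 := by linear_combination hx + h2
  exact one_ne_zero this

theorem eZ_ne_one : eZ ω hω ≠ 1 := by
  intro h
  have h1 : (eZ ω hω).1.1 = 1 := by rw [h]; rfl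
  rw [eZ_val] at h1
  have h2 := congrFun (congrFun h1 0) 0
  simp at h2
  exact omega_ne_one hω h2

theorem not_comm_CD : ¬ (eC ω hω * eD ω hω = eD ω hω * eC ω hω) := by
  intro h
  rw [relCD] at h
  exact eZ_ne_one ω hω (mul_eq_right.1 h)

theorem A2_not_center (hF : Fintype.card F = 4) :
    eA ω hω * eA ω hω ∉ Subgroup.center ↥(Cfsg.SU 3 F 2) := by
  intro h
  obtain ⟨s, -, -, hs⟩ := Helper3.SU_center_scalar (q := 2) (by rw [hF]; norm_num) (by norm_num)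
    (eA ω hω * eA ω hω) h
  have h1 : (eA ω hω * eA ω hω).1.1 = (phi ω hω).mapMatrix (aK * aK) := by
    show (phi ω hω).mapMatrix aK * (phi ω hω).mapMatrix aK = _
    rw [← map_mul]
  rw [h1] at hs
  have h2 := congrFun (congrFun hs 1) 2
  rw [RingHom.mapMatrix_apply, Matrix.map_apply, aa12, map_one] at h2
  simp at h2

end

end SU32
end Cfsg.Agent.Helper13
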