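import Cfsg.Agent.Helper13.SU32b

set_option autoImplicit false
open Cfsg

namespace Cfsg.Agent.Helper13
namespace SU32

variable {F : Type*} [Field F] [CharP F 2] [Fintype F]

theorem main (ω : F) (hω : ω ^ 2 = ω + 1) (hF : Fintype.card F = 4) (h72 : Nat.card (Cfsg.PSU 3 F 2) = 72) :
    ∃ (N : Subgroup (Cfsg.PSU 3 F 2)) (_ : N.Normal), Nat.card N = 9 ∧ (∀ x ∈ N, x ^ 3 = 1) ∧
      Nonempty (Cfsg.PSU 3 F 2 ⧸ N ≃* QuaternionGroup 2) := by
  classical
  have : Finite (Cfsg.PSU 3 F 2) := Nat.finite_of_card_ne_zero (by rw [h72]; norm_num)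
  obtain ⟨π, hπ⟩ : ∃ π : ↥(Cfsg.SU 3 F 2) →* Cfsg.PSU 3 F 2,
      π = QuotientGroup.mk' (Subgroup.center ↥(Cfsg.SU 3 F 2)) := ⟨_, rfl⟩
  have hker : ∀ x : ↥(Cfsg.SU 3 F 2), π x = 1 ↔ x ∈ Subgroup.center ↥(Cfsg.SU 3 F 2) := by
    intro x
    rw [hπ]
    exact QuotientGroup.eq_one_iff x
  obtain ⟨a, ha⟩ : ∃ a, a = π (eA ω hω) := ⟨_, rfl⟩
  obtain ⟨b, hb⟩ : ∃ b, b = π (eB ω hω) := ⟨_, rfl⟩
  obtain ⟨c, hc⟩ : ∃ c, c = π (eC ω hω) := ⟨_, rfl⟩
  obtain ⟨d, hd⟩ : ∃ d, d = π (eD ω hω) := ⟨_, rfl⟩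
  have hz : π (eZ ω hω) = 1 := (hker _).2 (eZ_center ω hω)
  -- the relations
  have r1 : a * b * a = b := by rw [ha, hb, ← map_mul, ← map_mul, relABA]
  have r2 : b * b = a ^ 2 := by rw [pow_two, ha, hb, ← map_mul, ← map_mul, relBB]
  have r3 : a ^ 4 = 1 := by
    have h : a ^ 4 = a * a * (a * a) := by rw [show (4 : ℕ) = 2 + 2 from rfl, pow_add, pow_two]
    rw [h, ha, ← map_mul, ← map_mul, relA4, map_one]
  have r4 : c ^ 3 = 1 := by
    have h : c ^ 3 = c * c * c := by rw [pow_succ, pow_two]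
    rw [h, hc, ← map_mul, ← map_mul, relC3, map_one]
  have r5 : d ^ 3 = 1 := by
    have h : d ^ 3 = d * d * d := by rw [pow_succ, pow_two]
    rw [h, hd, ← map_mul, ← map_mul, relD3, map_one]
  have r6 : c * d = d * c := by
    rw [hc, hd, ← map_mul, relCD, map_mul, hz, one_mul, map_mul]
  have r7 : a * c = d * d * a := by
    rw [ha, hc, hd, ← map_mul, relAC, map_mul, hz, one_mul, map_mul, map_mul]
  have r8 : a * d = c * a := by
    rw [ha, hc, hd, ← map_mul, relAD, map_mul, hz, one_mul, map_mul]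
  have r9 : b * c = c * d * b := by
    rw [hb, hc, hd, ← map_mul, relBC, map_mul, map_mul]
  have r10 : b * d = c * d * d * b := by
    rw [hb, hc, hd, ← map_mul, relBD, map_mul, hz, one_mul, map_mul, map_mul, map_mul]
  -- the quaternion subgroup
  have ha2 : a ^ 2 ≠ 1 := by
    intro h
    rw [pow_two, ha, ← map_mul, hker] at h
    exact A2_not_center ω hω hF h
  have hoa : orderOf a = 4 := by
    have h := orderOf_eq_prime_pow (p := 2) (n := 1) (x := a) (by simpa using ha2)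
      (by simpa using r3)
    simpa using h
  have hbab : b * a * b⁻¹ = a⁻¹ := by
    have h1 : b * a = a⁻¹ * b := by
      rw [eq_inv_mul_iff_mul_eq, ← mul_assoc]
      exact r1
    rw [h1, mul_assoc, mul_inv_cancel, mul_one]
  obtain ⟨eT⟩ := Helper23.quat_closure a b hoa r2 hbab
  obtain ⟨T, hT⟩ : ∃ T : Subgroup (Cfsg.PSU 3 F 2), T = Subgroup.closure {a, b} := ⟨_, rfl⟩
  rw [← hT] at eT
  have hTcard : Nat.card T = 8 := by
    rw [Nat.card_congr eT.toEquiv, Nat.card_eq_fintype_card, QuaternionGroup.card]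
  -- the normal subgroup
  obtain ⟨N, hN⟩ : ∃ N : Subgroup (Cfsg.PSU 3 F 2), N = Subgroup.closure {c, d} := ⟨_, rfl⟩
  have hcN : c ∈ N := by rw [hN]; exact Subgroup.subset_closure (by simp)
  have hdN : d ∈ N := by rw [hN]; exact Subgroup.subset_closure (by simp)
  have hNcen : N ≤ Subgroup.centralizer ({c, d} : Set (Cfsg.PSU 3 F 2)) := by
    rw [hN, Subgroup.closure_le]
    intro x hx
    rw [SetLike.mem_coe, Subgroup.mem_centralizer_iff]
    intro y hy
    rcases hx with rfl | rfl <;> rcases hy with rfl | rfl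
    · rfl
    · exact r6.symm
    · exact r6
    · rfl
  have hNcomm : ∀ x ∈ N, ∀ y ∈ N, x * y = y * x := by
    have h1 : N ≤ Subgroup.centralizer (N : Set (Cfsg.PSU 3 F 2)) := by
      conv_lhs => rw [hN]
      rw [Subgroup.closure_le]
      intro x hx
      rw [SetLike.mem_coe, Subgroup.mem_centralizer_iff]
      intro y hy
      have hy' := Subgroup.mem_centralizer_iff.1 (hNcen hy) x hx
      exact hy'.symm
    intro x hx y hy
    exact (Subgroup.mem_centralizer_iff.1 (h1 hx) y hy).symm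
  have hNexp : ∀ x ∈ N, x ^ 3 = 1 := by
    intro x hx
    have hx' : x ∈ Subgroup.closure ({c, d} : Set (Cfsg.PSU 3 F 2)) := hN ▸ hx
    induction hx' using Subgroup.closure_induction with
    | mem y hy =>
      rcases hy with rfl | rfl
      · exact r4
      · exact r5
    | one => exact one_pow 3
    | mul y y' hy hy' ihy ihy' =>
      have hcm : Commute y y' := hNcomm y (hN ▸ hy) y' (hN ▸ hy')
      rw [hcm.mul_pow, ihy (hN ▸ hy), ihy' (hN ▸ hy'), one_mul]
    | inv y hy ih => rw [inv_pow, ih (hN ▸ hy), inv_one]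
  have hcd := not_comm_CD ω hω
  have hc1 : c ≠ 1 := by
    intro h
    rw [hc, hker] at h
    exact hcd (Subgroup.mem_center_iff.1 h (eD ω hω)).symm
  have hoc : orderOf c = 3 := orderOf_eq_prime r4 hc1
  have hdc : d ∉ Subgroup.zpowers c := by
    intro h
    have h1 : Subgroup.zpowers c ≤
        (Subgroup.centralizer ({eC ω hω} : Set ↥(Cfsg.SU 3 F 2))).map π := by
      rw [Subgroup.zpowers_le]
      refine ⟨eC ω hω, ?_, hc.symm⟩
      rw [SetLike.mem_coe, Subgroup.mem_centralizer_iff]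
      intro y hy
      rw [Set.mem_singleton_iff.1 hy]
    obtain ⟨x, hx, hxd⟩ := h1 h
    have h2 : π (x⁻¹ * eD ω hω) = 1 := by
      rw [map_mul, map_inv, hxd, hd, inv_mul_cancel]
    rw [hker] at h2
    have hxc : eC ω hω * x = x * eC ω hω :=
      Subgroup.mem_centralizer_iff.1 hx (eC ω hω) rfl
    have hyc := Subgroup.mem_center_iff.1 h2 (eC ω hω)
    apply hcd
    calc eC ω hω * eD ω hω = eC ω hω * x * (x⁻¹ * eD ω hω) := by group
      _ = x * (eC ω hω * (x⁻¹ * eD ω hω)) := by rw [hxc, mul_assoc]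
      _ = x * ((x⁻¹ * eD ω hω) * eC ω hω) := by rw [hyc]
      _ = eD ω hω * eC ω hω := by group
  have hNcard : Nat.card N = 9 := by
    have hp : IsPGroup 3 N := by
      intro x
      refine ⟨1, ?_⟩
      apply Subtype.ext
      rw [pow_one, Subgroup.coe_pow]
      exact hNexp x.1 x.2
    obtain ⟨k, hk⟩ := hp.exists_card_eq
    have hdvd : Nat.card N ∣ 72 := h72 ▸ Subgroup.card_subgroup_dvd_card N
    have hzle : Subgroup.zpowers c ≤ N := by rw [Subgroup.zpowers_le]; exact hcN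
    have hzcard : Nat.card (Subgroup.zpowers c) = 3 := by rw [Nat.card_zpowers, hoc]
    have h3 : 3 ∣ Nat.card N := by
      have h := Subgroup.card_dvd_of_le hzle
      rwa [hzcard] at h
    have hne3 : Nat.card N ≠ 3 := by
      intro h
      have h4 : Subgroup.zpowers c = N :=
        Subgroup.eq_of_le_of_card_ge hzle (by rw [h, hzcard])
      exact hdc (h4 ▸ hdN)
    rw [hk] at hdvd h3 hne3 ⊢
    rcases k with _ | _ | _ | k
    · norm_num at h3
    · exact absurd (pow_one 3) hne3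
    · norm_num
    · exfalso
      have h27 : 27 ∣ 72 := Dvd.dvd.trans ⟨3 ^ k, by ring⟩ hdvd
      norm_num at h27
  -- normality
  have key : ∀ g : Cfsg.PSU 3 F 2, g * c * g⁻¹ ∈ N → g * d * g⁻¹ ∈ N →
      g ∈ Subgroup.normalizer (N : Set (Cfsg.PSU 3 F 2)) := by
    intro g hgc hgd
    apply Helper17.mem_normalizer_of_cj_le
    have hall : ∀ y ∈ Subgroup.closure ({c, d} : Set (Cfsg.PSU 3 F 2)), g * y * g⁻¹ ∈ N := by
      intro y hy
      induction hy using Subgroup.closure_induction with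
      | mem y hy =>
        rcases hy with rfl | rfl
        · exact hgc
        · exact hgd
      | one =>
        have h : g * 1 * g⁻¹ = 1 := by group
        rw [h]; exact N.one_mem
      | mul y y' _ _ ihy ihy' =>
        have h : g * (y * y') * g⁻¹ = (g * y * g⁻¹) * (g * y' * g⁻¹) := by group
        rw [h]; exact N.mul_mem ihy ihy'
      | inv y _ ih =>
        have h : g * y⁻¹ * g⁻¹ = (g * y * g⁻¹)⁻¹ := by group
        rw [h]; exact N.inv_mem ih
    intro x hx
    obtain ⟨y, hy, rfl⟩ := Helper17.mem_cj'.1 hx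
    exact hall y (hN ▸ hy)
  have hnormA : a ∈ Subgroup.normalizer (N : Set (Cfsg.PSU 3 F 2)) := by
    apply key
    · have h : a * c * a⁻¹ = d * d := by rw [r7, mul_assoc, mul_inv_cancel, mul_one]
      rw [h]; exact N.mul_mem hdN hdN
    · have h : a * d * a⁻¹ = c := by rw [r8, mul_assoc, mul_inv_cancel, mul_one]
      rw [h]; exact hcN
  have hnormB : b ∈ Subgroup.normalizer (N : Set (Cfsg.PSU 3 F 2)) := by
    apply key
    · have h : b * c * b⁻¹ = c * d := by rw [r9, mul_assoc, mul_inv_cancel, mul_one]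
      rw [h]; exact N.mul_mem hcN hdN
    · have h : b * d * b⁻¹ = c * d * d := by rw [r10, mul_assoc, mul_inv_cancel, mul_one]
      rw [h]; exact N.mul_mem (N.mul_mem hcN hdN) hdN
  have hTle : T ≤ Subgroup.normalizer (N : Set (Cfsg.PSU 3 F 2)) := by
    rw [hT, Subgroup.closure_le]
    intro x hx
    rcases hx with rfl | rfl
    · exact hnormA
    · exact hnormB
  have hnorm : Subgroup.normalizer (N : Set (Cfsg.PSU 3 F 2)) = ⊤ := by
    apply Subgroup.eq_top_of_card_eq
    have h8 : 8 ∣ Nat.card (Subgroup.normalizer (N : Set (Cfsg.PSU 3 F 2))) :=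
      hTcard ▸ Subgroup.card_dvd_of_le hTle
    have h9 : 9 ∣ Nat.card (Subgroup.normalizer (N : Set (Cfsg.PSU 3 F 2))) :=
      hNcard ▸ Subgroup.card_dvd_of_le Subgroup.le_normalizer
    have h72' : 8 * 9 ∣ Nat.card (Subgroup.normalizer (N : Set (Cfsg.PSU 3 F 2))) :=
      Nat.Coprime.mul_dvd_of_dvd_of_dvd (by norm_num) h8 h9
    have hle : Nat.card (Subgroup.normalizer (N : Set (Cfsg.PSU 3 F 2))) ∣ 72 :=
      h72 ▸ Subgroup.card_subgroup_dvd_card _
    rw [h72]
    exact Nat.dvd_antisymm hle h72'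
  have hNn : N.Normal := Subgroup.normalizer_eq_top_iff.1 hnorm
  refine ⟨N, hNn, hNcard, hNexp, ?_⟩
  have := hNn
  obtain ⟨f, hf⟩ : ∃ f : ↥T →* Cfsg.PSU 3 F 2 ⧸ N, f = (QuotientGroup.mk' N).comp T.subtype :=
    ⟨_, rfl⟩
  have hinj : Function.Injective f := by
    rw [injective_iff_map_eq_one]
    intro x hx
    have hxN : (x : Cfsg.PSU 3 F 2) ∈ N := by
      rw [hf] at hx
      exact (QuotientGroup.eq_one_iff _).1 hx
    have h3 := hNexp _ hxN
    have h8 : x ^ 8 = 1 := by rw [← hTcard]; exact pow_card_eq_one'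
    have h8' : (x : Cfsg.PSU 3 F 2) ^ 8 = 1 := by
      have h := congrArg Subtype.val h8
      rw [Subgroup.coe_pow] at h
      exact h
    have h9 : (x : Cfsg.PSU 3 F 2) ^ 9 = 1 := by
      rw [show (9 : ℕ) = 3 * 3 from rfl, pow_mul, h3, one_pow]
    have h10 : (x : Cfsg.PSU 3 F 2) ^ 9 = (x : Cfsg.PSU 3 F 2) ^ 8 * x := pow_succ _ 8
    rw [h9, h8', one_mul] at h10
    exact Subtype.ext h10.symm
  have hcardQ : Nat.card (Cfsg.PSU 3 F 2 ⧸ N) = 8 := by
    have h := Subgroup.card_eq_card_quotient_mul_card_subgroup N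
    rw [h72, hNcard] at h
    omega
  have hbij : Function.Bijective f :=
    hinj.bijective_of_nat_card_le (by rw [hcardQ, hTcard])
  exact ⟨(MulEquiv.ofBijective f hbij).symm.trans eT⟩

end SU32
end Cfsg.Agent.Helper13
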